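import Mathlib

set_option autoImplicit false

namespace Cfsg.Agent.Lib.Helper21.ExtIso

theorem ext_iso {P A W : Type*} [Group P] [Group A] [Group W] [Finite P] [Finite A]
    (πP : P →* W) (πA : A →* W) (hπP : Function.Surjective πP) (hπA : Function.Surjective πA)
    (Z : Subgroup P) (hZ : ∀ p, p ∈ Z ↔ πP p = 1)
    (ν : Z →* A) (hνker : ∀ z, πA (ν z) = 1) (hνinj : Function.Injective ν)
    (hνsurj : ∀ a, πA a = 1 → ∃ z, ν z = a)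
    (hsq : ∀ p a, πP p = πA a → ∃ hz : p * p ∈ Z, ν ⟨p * p, hz⟩ = a * a) :
    Nonempty (P ≃* A) := by
  classical
  let Δ : Subgroup (P × A) := (MonoidHom.prod Z.subtype ν).range
  have hΔmem : ∀ x : P × A, x ∈ Δ ↔ ∃ hz : x.1 ∈ Z, ν ⟨x.1, hz⟩ = x.2 := by
    intro x
    constructor
    · rintro ⟨z, rfl⟩
      exact ⟨z.2, rfl⟩
    · rintro ⟨hz, h⟩
      exact ⟨⟨x.1, hz⟩, Prod.ext rfl h⟩
  let Γ' : Subgroup (P × A) :=
    { carrier := {x | πP x.1 = πA x.2}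
      one_mem' := by simp
      mul_mem' := by
        intro x y hx hy
        have hx' : πP x.1 = πA x.2 := hx
        have hy' : πP y.1 = πA y.2 := hy
        show πP (x * y).1 = πA (x * y).2
        rw [Prod.fst_mul, Prod.snd_mul, map_mul, map_mul, hx', hy']
      inv_mem' := by
        intro x hx
        have hx' : πP x.1 = πA x.2 := hx
        show πP (x⁻¹).1 = πA (x⁻¹).2
        rw [Prod.fst_inv, Prod.snd_inv, map_inv, map_inv, hx'] }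
  have hΓ'mem : ∀ x : P × A, x ∈ Γ' ↔ πP x.1 = πA x.2 := fun x => Iff.rfl
  have hΔΓ' : Δ ≤ Γ' := by
    intro x hx
    obtain ⟨hz, h⟩ := (hΔmem x).1 hx
    rw [hΓ'mem, ← h, hνker, (hZ _).1 hz]
  have hsqΔ : ∀ x ∈ Γ', x * x ∈ Δ := by
    intro x hx
    rw [hΔmem]
    exact hsq x.1 x.2 hx
  let 𝒮 : Subgroup (P × A) → Prop := fun Γ => Δ ≤ Γ ∧ Γ ≤ Γ' ∧ ∀ x ∈ Γ, πP x.1 = 1 → x ∈ Δ
  have h𝒮Δ : 𝒮 Δ := ⟨le_refl _, hΔΓ', fun x hx _ => hx⟩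
  obtain ⟨Γ, hΔΓ, hΓmax⟩ := Finite.exists_le_maximal h𝒮Δ
  obtain ⟨⟨_, hΓΓ', hΓker⟩, hmax⟩ := hΓmax
  have hnorm : ∀ g ∈ Γ', ∀ x ∈ Γ, g⁻¹ * x * g ∈ Γ := by
    intro g hg x hx
    have e : g⁻¹ * x * g = x⁻¹ * ((x * g⁻¹) * (x * g⁻¹)) * (g * g) := by group
    rw [e]
    exact Γ.mul_mem (Γ.mul_mem (Γ.inv_mem hx)
      (hΔΓ (hsqΔ _ (Γ'.mul_mem (hΓΓ' hx) (Γ'.inv_mem hg))))) (hΔΓ (hsqΔ _ hg))
  have hcover : ∀ γ ∈ Γ', ∃ δ : P × A, πP δ.1 = 1 ∧ πA δ.2 = 1 ∧ δ * γ ∈ Γ := by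
    intro γ₀ hγ₀
    by_contra hcon
    push Not at hcon
    let Γ₁ : Subgroup (P × A) :=
      { carrier := {x | x ∈ Γ ∨ γ₀⁻¹ * x ∈ Γ}
        one_mem' := Or.inl Γ.one_mem
        mul_mem' := by
          intro x y hx hy
          rcases hx with hx | hx
          · rcases hy with hy | hy
            · exact Or.inl (Γ.mul_mem hx hy)
            · right
              have e : γ₀⁻¹ * (x * y) = (γ₀⁻¹ * x * γ₀) * (γ₀⁻¹ * y) := by group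
              show γ₀⁻¹ * (x * y) ∈ Γ
              rw [e]
              exact Γ.mul_mem (hnorm γ₀ hγ₀ x hx) hy
          · rcases hy with hy | hy
            · right
              have e : γ₀⁻¹ * (x * y) = (γ₀⁻¹ * x) * y := by group
              show γ₀⁻¹ * (x * y) ∈ Γ
              rw [e]
              exact Γ.mul_mem hx hy
            · left
              have e : x * y = (γ₀ * γ₀) * (γ₀⁻¹ * (γ₀⁻¹ * x) * γ₀) * (γ₀⁻¹ * y) := by group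
              show x * y ∈ Γ
              rw [e]
              exact Γ.mul_mem (Γ.mul_mem (hΔΓ (hsqΔ _ hγ₀)) (hnorm γ₀ hγ₀ _ hx)) hy
        inv_mem' := by
          intro x hx
          rcases hx with hx | hx
          · exact Or.inl (Γ.inv_mem hx)
          · right
            have e : γ₀⁻¹ * x⁻¹ = (γ₀⁻¹ * (γ₀⁻¹ * x)⁻¹ * γ₀) * (γ₀ * γ₀)⁻¹ := by group
            show γ₀⁻¹ * x⁻¹ ∈ Γ
            rw [e]
            exact Γ.mul_mem (hnorm γ₀ hγ₀ _ (Γ.inv_mem hx)) (Γ.inv_mem (hΔΓ (hsqΔ _ hγ₀))) }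
    have hΓΓ₁ : Γ ≤ Γ₁ := fun x hx => Or.inl hx
    have hΓ₁Γ' : Γ₁ ≤ Γ' := by
      intro x hx
      rcases hx with hx | hx
      · exact hΓΓ' hx
      · have : x = γ₀ * (γ₀⁻¹ * x) := by group
        rw [this]
        exact Γ'.mul_mem hγ₀ (hΓΓ' hx)
    have h𝒮Γ₁ : 𝒮 Γ₁ := by
      refine ⟨le_trans hΔΓ hΓΓ₁, hΓ₁Γ', ?_⟩
      intro x hx hx1
      have hx' : x ∈ Γ' := hΓ₁Γ' hx
      rcases hx with hx | hx
      · exact hΓker x hx hx1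
      · exfalso
        apply hcon x⁻¹ ?_ ?_
        · have e : x⁻¹ * γ₀ = (γ₀⁻¹ * x)⁻¹ := by group
          rw [e]; exact Γ.inv_mem hx
        · rw [Prod.fst_inv, map_inv, hx1, inv_one]
        · rw [Prod.snd_inv, map_inv, ← (hΓ'mem x).1 hx', hx1, inv_one]
    have hle := hmax h𝒮Γ₁ hΓΓ₁
    have hγ₀Γ : γ₀ ∈ Γ := hle (Or.inr (by rw [inv_mul_cancel]; exact Γ.one_mem))
    exact hcon 1 (by simp) (by simp) (by rw [one_mul]; exact hγ₀Γ)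
  have hex : ∀ p : P, ∃ a : A, (p, a) ∈ Γ := by
    intro p
    obtain ⟨a, ha⟩ := hπA (πP p)
    obtain ⟨δ, hδ1, hδ2, hδ⟩ := hcover (p, a) ha.symm
    have hz : δ.1⁻¹ ∈ Z := Z.inv_mem ((hZ _).2 hδ1)
    have h1 : (δ.1⁻¹, ν ⟨δ.1⁻¹, hz⟩) ∈ Γ := hΔΓ ((hΔmem _).2 ⟨hz, rfl⟩)
    have h2 := Γ.mul_mem h1 hδ
    refine ⟨ν ⟨δ.1⁻¹, hz⟩ * (δ.2 * a), ?_⟩
    have e : ((δ.1⁻¹, ν ⟨δ.1⁻¹, hz⟩) : P × A) * (δ * (p, a)) =
        (p, ν ⟨δ.1⁻¹, hz⟩ * (δ.2 * a)) := by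
      apply Prod.ext
      · simp
      · simp
    rw [← e]; exact h2
  have huniq : ∀ p a a', (p, a) ∈ Γ → (p, a') ∈ Γ → a = a' := by
    intro p a a' h h'
    have h3 : ((p, a) : P × A)⁻¹ * (p, a') ∈ Γ := Γ.mul_mem (Γ.inv_mem h) h'
    have e : ((p, a) : P × A)⁻¹ * (p, a') = (1, a⁻¹ * a') := by
      apply Prod.ext <;> simp
    rw [e] at h3
    have h4 := hΓker _ h3 (map_one _)
    obtain ⟨hz, h5⟩ := (hΔmem _).1 h4
    have h6 : ν (1 : Z) = a⁻¹ * a' := h5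
    rw [map_one] at h6
    exact inv_mul_eq_one.mp h6.symm
  have hex' : ∀ a : A, ∃ p : P, (p, a) ∈ Γ := by
    intro a
    obtain ⟨p, hp⟩ := hπP (πA a)
    obtain ⟨δ, hδ1, hδ2, hδ⟩ := hcover (p, a) hp
    obtain ⟨z, hz⟩ := hνsurj δ.2⁻¹ (by rw [map_inv, hδ2, inv_one])
    have h1 : ((z : P), ν z) ∈ Γ := hΔΓ ((hΔmem _).2 ⟨z.2, rfl⟩)
    have h2 := Γ.mul_mem h1 hδ
    refine ⟨(z : P) * (δ.1 * p), ?_⟩
    have e : (((z : P), ν z) : P × A) * (δ * (p, a)) = ((z : P) * (δ.1 * p), a) := by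
      apply Prod.ext
      · simp
      · simp [hz]
    rw [← e]; exact h2
  have huniq' : ∀ p p' a, (p, a) ∈ Γ → (p', a) ∈ Γ → p = p' := by
    intro p p' a h h'
    have h3 : ((p, a) : P × A)⁻¹ * (p', a) ∈ Γ := Γ.mul_mem (Γ.inv_mem h) h'
    have e : ((p, a) : P × A)⁻¹ * (p', a) = (p⁻¹ * p', 1) := by
      apply Prod.ext <;> simp
    rw [e] at h3
    have h3' : πP (p⁻¹ * p') = πA 1 := hΓΓ' h3
    have h4 := hΓker _ h3 (by rw [h3']; exact map_one _)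
    obtain ⟨hz, h5⟩ := (hΔmem _).1 h4
    have h5' : ν ⟨p⁻¹ * p', hz⟩ = 1 := h5
    have h6 : (⟨p⁻¹ * p', hz⟩ : Z) = 1 := hνinj (by rw [map_one]; exact h5')
    have h7 : p⁻¹ * p' = 1 := congrArg Subtype.val h6
    exact inv_mul_eq_one.mp h7
  choose f hf using hex
  have hfmul : ∀ p q, f (p * q) = f p * f q := by
    intro p q
    exact huniq _ _ _ (hf (p * q)) (Γ.mul_mem (hf p) (hf q))
  let fh : P →* A := MonoidHom.mk' f hfmul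
  refine ⟨MulEquiv.ofBijective fh ⟨?_, ?_⟩⟩
  · intro p p' h
    have h1 := hf p
    have h2 := hf p'
    have h' : f p = f p' := h
    rw [h'] at h1
    exact huniq' _ _ _ h1 h2
  · intro a
    obtain ⟨p, hp⟩ := hex' a
    exact ⟨p, huniq _ _ _ (hf p) hp⟩

end Cfsg.Agent.Lib.Helper21.ExtIso
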