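import Mathlib

set_option autoImplicit false

namespace Cfsg.Agent.Lib.Helper21.Hall

/-- Four pairwise distinct points. -/
def Dist4 {α : Type*} (a b c d : α) : Prop :=
  a ≠ b ∧ a ≠ c ∧ a ≠ d ∧ b ≠ c ∧ b ≠ d ∧ c ≠ d

/-- Abstract hypotheses of M. Hall's theorem on 4-transitive groups with odd 4-point stabilizers:
`G` acts 4-transitively on `α` (elementwise form) and every element fixing four distinct points
has odd order. -/
structure Hyp (G : Type*) [Group G] (α : Type*) [MulAction G α] : Prop where
  tr : ∀ a b c d a' b' c' d' : α, Dist4 a b c d → Dist4 a' b' c' d' →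
    ∃ g : G, g • a = a' ∧ g • b = b' ∧ g • c = c' ∧ g • d = d'
  odd : ∀ (g : G) (a b c d : α), Dist4 a b c d →
    g • a = a → g • b = b → g • c = c → g • d = d → Odd (orderOf g)

end Cfsg.Agent.Lib.Helper21.Hall
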