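import Mathlib
import Cfsg.Agent.Lib.Helper21.HallDefs
import Cfsg.Agent.Lib.Helper48.Generation

set_option autoImplicit false

namespace Cfsg.Agent.Lib.Helper21.Hall

open MulAction

variable {G : Type*} [Group G] {α : Type*} [MulAction G α]

theorem sq_pow_smul (g : G) (p : α) (h : g • g • p = p) (j : ℕ) : (g * g) ^ j • p = p := by
  induction j with
  | zero => simp
  | succ j ih => rw [pow_succ, mul_smul, mul_smul, h, ih]

theorem pow_odd_smul (g : G) (p : α) (h : g • g • p = p) {m : ℕ} (hm : Odd m) :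
    g ^ m • p = g • p := by
  obtain ⟨j, rfl⟩ := hm
  rw [pow_succ, pow_mul, pow_two, mul_smul]
  exact sq_pow_smul g (g • p) (by rw [h]) j

theorem smul_eq_of_sq_smul (g : G) (p : α) (hodd : Odd (orderOf g)) (h : g • g • p = p) :
    g • p = p := by
  have h1 := pow_odd_smul g p h hodd
  rw [pow_orderOf_eq_one, one_smul] at h1
  exact h1.symm

theorem zpowers_smul_eq (h k : G) (hk : k ∈ Subgroup.zpowers h) (p : α) (hp : h • p = p) :
    k • p = p := by
  have h1 : Subgroup.zpowers h ≤ stabilizer G p := by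
    rw [Subgroup.zpowers_le]
    exact mem_stabilizer_iff.mpr hp
  exact mem_stabilizer_iff.mp (h1 hk)

theorem conj_of_coset (t h : G) (ht : t * t = 1) (hth : (t * h) * (t * h) = 1)
    (hodd : Odd (orderOf h)) : ∃ k ∈ Subgroup.zpowers h, k⁻¹ * t * k = t * h := by
  obtain ⟨j, hj⟩ := hodd
  have htinv : t⁻¹ = t := inv_eq_of_mul_eq_one_left ht
  have hinv : t * h * t = h⁻¹ := by
    have h1 : t * h * t * h = 1 := by rw [← hth]; group
    exact eq_inv_of_mul_eq_one_left h1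
  have hpow : ∀ m : ℕ, t * h ^ m * t = (h ^ m)⁻¹ := by
    intro m
    induction m with
    | zero => simp [ht]
    | succ m ih =>
      have e : t * h ^ (m + 1) * t = (t * h ^ m * t) * (t * h * t) := by
        have e1 : (t * h ^ m * t) * (t * h * t) = t * h ^ m * (t * t) * h * t := by group
        rw [e1, ht, pow_succ]
        group
      rw [e, ih, hinv, pow_succ', mul_inv_rev]
  refine ⟨h ^ (j + 1), Subgroup.pow_mem _ (Subgroup.mem_zpowers h) _, ?_⟩
  have hk2 : h ^ (j + 1) * h ^ (j + 1) = h := by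
    rw [← pow_add]
    have e : j + 1 + (j + 1) = orderOf h + 1 := by omega
    rw [e, pow_succ, pow_orderOf_eq_one, one_mul]
  have h1 : t * (h ^ (j + 1))⁻¹ * t = h ^ (j + 1) := by
    calc t * (h ^ (j + 1))⁻¹ * t = (t * h ^ (j + 1) * t)⁻¹ := by
          rw [mul_inv_rev, mul_inv_rev, htinv]; group
      _ = h ^ (j + 1) := by rw [hpow, inv_inv]
  calc (h ^ (j + 1))⁻¹ * t * h ^ (j + 1)
      = (t * t) * (h ^ (j + 1))⁻¹ * t * h ^ (j + 1) := by rw [ht, one_mul]
    _ = t * (t * (h ^ (j + 1))⁻¹ * t) * h ^ (j + 1) := by group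
    _ = t * (h ^ (j + 1) * h ^ (j + 1)) := by rw [h1]; group
    _ = t * h := by rw [hk2]

theorem conj_of_agree (hyp : Hyp G α) (t t' : G) (ht : t * t = 1) (ht' : t' * t' = 1)
    (a b c d : α) (hd : Dist4 a b c d) (ha : t • a = t' • a) (hb : t • b = t' • b)
    (hc : t • c = t' • c) (hdd : t • d = t' • d) :
    ∃ k : G, k • a = a ∧ k • b = b ∧ k • c = c ∧ k • d = d ∧ k⁻¹ * t * k = t' := by
  have hfix : ∀ p : α, t • p = t' • p → (t * t') • p = p := by
    intro p hp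
    rw [mul_smul, ← hp, ← mul_smul, ht, one_smul]
  have hodd := hyp.odd (t * t') a b c d hd (hfix a ha) (hfix b hb) (hfix c hc) (hfix d hdd)
  have hth : t * (t * t') = t' := by rw [← mul_assoc, ht, one_mul]
  obtain ⟨k, hk, hk2⟩ := conj_of_coset t (t * t') ht (by rw [hth]; exact ht') hodd
  exact ⟨k, zpowers_smul_eq _ k hk a (hfix a ha), zpowers_smul_eq _ k hk b (hfix b hb),
    zpowers_smul_eq _ k hk c (hfix c hc), zpowers_smul_eq _ k hk d (hfix d hdd), by rw [hk2, hth]⟩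

theorem exists_comm_map (hyp : Hyp G α) (x : G) (hx : x * x = 1) (c d : α) (hcd : c ≠ d)
    (hxc : x • c = d) (p q : α) (hp : x • p ≠ p) (hq : x • q ≠ q) (hpc : p ≠ c) (hpd : p ≠ d)
    (hqc : q ≠ c) (hqd : q ≠ d) :
    ∃ g : G, g * x = x * g ∧ g • c = c ∧ g • d = d ∧ g • p = q := by
  have hxx : ∀ r : α, x • x • r = r := fun r => by rw [← mul_smul, hx, one_smul]
  have hxd : x • d = c := by rw [← hxc, hxx]
  have aux : ∀ r : α, x • r ≠ r → r ≠ c → r ≠ d → Dist4 c d r (x • r) := by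
    intro r hr hrc hrd
    refine ⟨hcd, hrc.symm, ?_, hrd.symm, ?_, hr.symm⟩
    · intro h
      have h1 : x • c = r := by rw [h, hxx]
      exact hrd (h1.symm.trans hxc)
    · intro h
      have h1 : x • d = r := by rw [h, hxx]
      exact hrc (h1.symm.trans hxd)
  obtain ⟨g₀, h1, h2, h3, h4⟩ := hyp.tr c d p (x • p) c d q (x • q) (aux p hp hpc hpd)
    (aux q hq hqc hqd)
  have hinv : ∀ r s : α, g₀ • r = s → g₀⁻¹ • s = r := fun r s h => by rw [← h, inv_smul_smul]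
  have ht2 : (g₀ * x * g₀⁻¹) * (g₀ * x * g₀⁻¹) = 1 := by
    have e : (g₀ * x * g₀⁻¹) * (g₀ * x * g₀⁻¹) = g₀ * (x * x) * g₀⁻¹ := by group
    rw [e, hx]; group
  obtain ⟨k, hk1, hk2, hk3, hk4, hk5⟩ := conj_of_agree hyp x (g₀ * x * g₀⁻¹) hx ht2 c d q (x • q)
    (aux q hq hqc hqd)
    (by rw [mul_smul, mul_smul, hinv c c h1, hxc, h2])
    (by rw [mul_smul, mul_smul, hinv d d h2, hxd, h1])
    (by rw [mul_smul, mul_smul, hinv p q h3, h4])
    (by rw [mul_smul, mul_smul, hinv (x • p) (x • q) h4, hxx, hxx, h3])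
  refine ⟨k * g₀, ?_, ?_, ?_, ?_⟩
  · have e1 : x * k = k * (g₀ * x * g₀⁻¹) := by rw [← hk5]; group
    calc k * g₀ * x = k * (g₀ * x * g₀⁻¹) * g₀ := by group
      _ = x * k * g₀ := by rw [← e1]
      _ = x * (k * g₀) := by group
  · rw [mul_smul, h1, hk1]
  · rw [mul_smul, h2, hk2]
  · rw [mul_smul, h3, hk3]

theorem exists_invol (hyp : Hyp G α) (s g₀ : G) (hs : s * s = 1) (a b c d : α)
    (hd : Dist4 a b c d)
    (h1 : ∀ q : α, (q = a ∨ q = b ∨ q = c ∨ q = d) →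
      (g₀ • q = a ∨ g₀ • q = b ∨ g₀ • q = c ∨ g₀ • q = d) ∧ g₀ • g₀ • q = q ∧
        g₀ • s • q = s • g₀ • q) :
    ∃ t : G, t * t = 1 ∧ t * s = s * t ∧ t • a = g₀ • a ∧ t • b = g₀ • b ∧ t • c = g₀ • c ∧
      t • d = g₀ • d := by
  have hP : ∀ q : α, (q = a ∨ q = b ∨ q = c ∨ q = d) → s • q = (g₀ * s * g₀⁻¹) • q := by
    intro q hq
    obtain ⟨hq1, hq2, _⟩ := h1 q hq
    have e1 : g₀⁻¹ • q = g₀ • q := by
      rw [inv_smul_eq_iff, hq2]
    rw [mul_smul, mul_smul, e1, (h1 (g₀ • q) hq1).2.2, hq2]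
  have ht2 : (g₀ * s * g₀⁻¹) * (g₀ * s * g₀⁻¹) = 1 := by
    have e : (g₀ * s * g₀⁻¹) * (g₀ * s * g₀⁻¹) = g₀ * (s * s) * g₀⁻¹ := by group
    rw [e, hs]; group
  obtain ⟨k, hk1, hk2, hk3, hk4, hk5⟩ := conj_of_agree hyp s (g₀ * s * g₀⁻¹) hs ht2 a b c d hd
    (hP a (Or.inl rfl)) (hP b (Or.inr (Or.inl rfl))) (hP c (Or.inr (Or.inr (Or.inl rfl))))
    (hP d (Or.inr (Or.inr (Or.inr rfl))))
  have hkP : ∀ q : α, (q = a ∨ q = b ∨ q = c ∨ q = d) → k • q = q := by
    rintro q (h | h | h | h) <;> rw [h] <;> assumption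
  have hcomm : (k * g₀) * s = s * (k * g₀) := by
    have e1 : s * k = k * (g₀ * s * g₀⁻¹) := by rw [← hk5]; group
    calc k * g₀ * s = k * (g₀ * s * g₀⁻¹) * g₀ := by group
      _ = s * k * g₀ := by rw [← e1]
      _ = s * (k * g₀) := by group
  have ht1 : ∀ q : α, (q = a ∨ q = b ∨ q = c ∨ q = d) → (k * g₀) • q = g₀ • q := by
    intro q hq
    rw [mul_smul, hkP _ (h1 q hq).1]
  have ht11 : ∀ q : α, (q = a ∨ q = b ∨ q = c ∨ q = d) → (k * g₀) • (k * g₀) • q = q := by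
    intro q hq
    rw [ht1 q hq, ht1 _ (h1 q hq).1, (h1 q hq).2.1]
  have hodd : Odd (orderOf ((k * g₀) * (k * g₀))) :=
    hyp.odd _ a b c d hd (by rw [mul_smul]; exact ht11 a (Or.inl rfl))
      (by rw [mul_smul]; exact ht11 b (Or.inr (Or.inl rfl)))
      (by rw [mul_smul]; exact ht11 c (Or.inr (Or.inr (Or.inl rfl))))
      (by rw [mul_smul]; exact ht11 d (Or.inr (Or.inr (Or.inr rfl))))
  refine ⟨(k * g₀) ^ orderOf ((k * g₀) * (k * g₀)), ?_, ?_, ?_, ?_, ?_, ?_⟩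
  · rw [← (Commute.refl (k * g₀)).mul_pow, pow_orderOf_eq_one]
  · exact ((show Commute (k * g₀) s from hcomm).pow_left _).eq
  · rw [pow_odd_smul _ a (ht11 a (Or.inl rfl)) hodd, ht1 a (Or.inl rfl)]
  · rw [pow_odd_smul _ b (ht11 b (Or.inr (Or.inl rfl))) hodd, ht1 b (Or.inr (Or.inl rfl))]
  · rw [pow_odd_smul _ c (ht11 c (Or.inr (Or.inr (Or.inl rfl)))) hodd,
      ht1 c (Or.inr (Or.inr (Or.inl rfl)))]
  · rw [pow_odd_smul _ d (ht11 d (Or.inr (Or.inr (Or.inr rfl)))) hodd,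
      ht1 d (Or.inr (Or.inr (Or.inr rfl)))]

theorem exists_x (hyp : Hyp G α) (a b c d : α) (hd : Dist4 a b c d) :
    ∃ x : G, x * x = 1 ∧ x • a = a ∧ x • b = b ∧ x • c = d ∧ x • d = c := by
  obtain ⟨h12, h13, h14, h23, h24, h34⟩ := hd
  obtain ⟨g₀, e1, e2, e3, e4⟩ := hyp.tr a b c d a b d c ⟨h12, h13, h14, h23, h24, h34⟩
    ⟨h12, h14, h13, h24, h23, h34.symm⟩
  obtain ⟨t, ht, -, ta, tb, tc, td⟩ := exists_invol hyp 1 g₀ (one_mul 1) a b c d
    ⟨h12, h13, h14, h23, h24, h34⟩ (by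
      rintro q (h | h | h | h) <;> rw [h] <;> simp [e1, e2, e3, e4])
  exact ⟨t, ht, by rw [ta, e1], by rw [tb, e2], by rw [tc, e3], by rw [td, e4]⟩

theorem exists_y (hyp : Hyp G α) (x : G) (hx : x * x = 1) (a b c d : α) (hd : Dist4 a b c d)
    (hxa : x • a = a) (hxb : x • b = b) (hxc : x • c = d) (hxd : x • d = c) :
    ∃ y : G, y * y = 1 ∧ y * x = x * y ∧ y • a = b ∧ y • b = a ∧ y • c = c ∧ y • d = d := by
  obtain ⟨h12, h13, h14, h23, h24, h34⟩ := hd
  obtain ⟨g₀, e1, e2, e3, e4⟩ := hyp.tr a b c d b a c d ⟨h12, h13, h14, h23, h24, h34⟩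
    ⟨h12.symm, h23, h24, h13, h14, h34⟩
  obtain ⟨t, ht, hts, ta, tb, tc, td⟩ := exists_invol hyp x g₀ hx a b c d
    ⟨h12, h13, h14, h23, h24, h34⟩ (by
      rintro q (h | h | h | h) <;> rw [h] <;> simp [e1, e2, e3, e4, hxa, hxb, hxc, hxd])
  exact ⟨t, ht, hts, by rw [ta, e1], by rw [tb, e2], by rw [tc, e3], by rw [td, e4]⟩

theorem exists_four (hyp : Hyp G α) (a b c d : α) (hd : Dist4 a b c d) :
    ∃ s t : G, s * s = 1 ∧ t * t = 1 ∧ s * t = t * s ∧ s • a = b ∧ s • b = a ∧ s • c = d ∧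
      s • d = c ∧ t • a = c ∧ t • c = a ∧ t • b = d ∧ t • d = b := by
  obtain ⟨h12, h13, h14, h23, h24, h34⟩ := hd
  have hd' : Dist4 a b c d := ⟨h12, h13, h14, h23, h24, h34⟩
  obtain ⟨g₀, e1, e2, e3, e4⟩ := hyp.tr a b c d b a d c hd'
    ⟨h12.symm, h24, h23, h14, h13, h34.symm⟩
  obtain ⟨s, hs, -, sa, sb, sc, sd⟩ := exists_invol hyp 1 g₀ (one_mul 1) a b c d hd' (by
      rintro q (h | h | h | h) <;> rw [h] <;> simp [e1, e2, e3, e4])
  rw [e1] at sa; rw [e2] at sb; rw [e3] at sc; rw [e4] at sd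
  obtain ⟨g₁, f1, f2, f3, f4⟩ := hyp.tr a b c d c d a b hd'
    ⟨h34, h13.symm, h23.symm, h14.symm, h24.symm, h12⟩
  obtain ⟨t, ht, hts, ta, tb, tc, td⟩ := exists_invol hyp s g₁ hs a b c d hd' (by
      rintro q (h | h | h | h) <;> rw [h] <;> simp [f1, f2, f3, f4, sa, sb, sc, sd])
  exact ⟨s, t, hs, ht, hts.symm, sa, sb, sc, sd, by rw [ta, f1], by rw [tc, f3], by rw [tb, f2],
    by rw [td, f4]⟩

theorem conj_of_two_cycles (hyp : Hyp G α) (x w : G) (hx : x * x = 1) (hw : w * w = 1)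
    (c d u v : α) (hd : Dist4 c d u v) (hxc : x • c = d) (hxu : x • u = v)
    (p₁ p₂ p₃ p₄ : α) (hp : Dist4 p₁ p₂ p₃ p₄) (hw1 : w • p₁ = p₂) (hw3 : w • p₃ = p₄) :
    ∃ k : G, w = k * x * k⁻¹ ∧ k • c = p₁ ∧ k • d = p₂ ∧ k • u = p₃ ∧ k • v = p₄ := by
  have hxx : ∀ r : α, x • x • r = r := fun r => by rw [← mul_smul, hx, one_smul]
  have hww : ∀ r : α, w • w • r = r := fun r => by rw [← mul_smul, hw, one_smul]
  have hxd : x • d = c := by rw [← hxc, hxx]
  have hxv : x • v = u := by rw [← hxu, hxx]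
  have hw2 : w • p₂ = p₁ := by rw [← hw1, hww]
  have hw4 : w • p₄ = p₃ := by rw [← hw3, hww]
  obtain ⟨g₀, h1, h2, h3, h4⟩ := hyp.tr c d u v p₁ p₂ p₃ p₄ hd hp
  have hinv : ∀ r s : α, g₀ • r = s → g₀⁻¹ • s = r := fun r s h => by rw [← h, inv_smul_smul]
  have ht2 : (g₀ * x * g₀⁻¹) * (g₀ * x * g₀⁻¹) = 1 := by
    have e : (g₀ * x * g₀⁻¹) * (g₀ * x * g₀⁻¹) = g₀ * (x * x) * g₀⁻¹ := by group
    rw [e, hx]; group
  obtain ⟨k, hk1, hk2, hk3, hk4, hk5⟩ := conj_of_agree hyp w (g₀ * x * g₀⁻¹) hw ht2 p₁ p₂ p₃ p₄ hp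
    (by rw [mul_smul, mul_smul, hinv c p₁ h1, hxc, h2, hw1])
    (by rw [mul_smul, mul_smul, hinv d p₂ h2, hxd, h1, hw2])
    (by rw [mul_smul, mul_smul, hinv u p₃ h3, hxu, h4, hw3])
    (by rw [mul_smul, mul_smul, hinv v p₄ h4, hxv, h3, hw4])
  refine ⟨k * g₀, ?_, ?_, ?_, ?_, ?_⟩
  · have e1 : w = k * (g₀ * x * g₀⁻¹) * k⁻¹ := by rw [← hk5]; group
    rw [e1]; group
  · rw [mul_smul, h1, hk1]
  · rw [mul_smul, h2, hk2]
  · rw [mul_smul, h3, hk3]
  · rw [mul_smul, h4, hk4]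

theorem fix_mem_of_three (hyp : Hyp G α) (x : G) (hx : x * x = 1) (hx1 : x ≠ 1) (a b e p : α)
    (hab : a ≠ b) (hae : a ≠ e) (hbe : b ≠ e) (ha : x • a = a) (hb : x • b = b) (he : x • e = e)
    (hp : x • p = p) : p = a ∨ p = b ∨ p = e := by
  by_contra hcon
  push Not at hcon
  have hodd := hyp.odd x a b e p ⟨hab, hae, hcon.1.symm, hbe, hcon.2.1.symm, hcon.2.2.symm⟩
    ha hb he hp
  have h2 : orderOf x ∣ 2 := orderOf_dvd_of_pow_eq_one (by rw [pow_two, hx])
  have h3 : orderOf x = 1 := by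
    rcases (Nat.dvd_prime Nat.prime_two).mp h2 with h | h
    · exact h
    · rw [h] at hodd; exact absurd hodd (by decide)
  exact hx1 (orderOf_eq_one_iff.mp h3)

theorem fix_of_conj (x w k : G) (hwk : w = k * x * k⁻¹) (a b : α) (hxa : x • a = a)
    (hfix : ∀ p, x • p = p → p = a ∨ p = b) :
    w • (k • a) = k • a ∧ ∀ q, w • q = q → q = k • a ∨ q = k • b := by
  constructor
  · rw [hwk, mul_smul, mul_smul, inv_smul_smul, hxa]
  · intro q hq
    have h1 : x • (k⁻¹ • q) = k⁻¹ • q := by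
      rw [hwk, mul_smul, mul_smul] at hq
      rw [eq_inv_smul_iff]
      exact hq
    rcases hfix _ h1 with h | h
    · left; rw [← h, smul_inv_smul]
    · right; rw [← h, smul_inv_smul]

theorem no_swap (x e : G) (hx : x * x = 1) (hcomm : e * x = x * e) (hodd : Odd (orderOf e))
    (u : α) (h : e • u = x • u) : x • u = u := by
  have h1 : (x * e) • u = u := by rw [mul_smul, h, ← mul_smul, hx, one_smul]
  have h2 : (x * e) ^ orderOf e = x := by
    have hc : Commute x e := hcomm.symm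
    rw [hc.mul_pow, pow_orderOf_eq_one, mul_one]
    obtain ⟨j, hj⟩ := hodd
    rw [hj, pow_succ, pow_mul, pow_two, hx, one_pow, one_mul]
  have h3 : (x * e) ^ orderOf e • u = u :=
    mem_stabilizer_iff.mp ((stabilizer G u).pow_mem (mem_stabilizer_iff.mpr h1) (orderOf e))
  rw [h2] at h3
  exact h3

theorem even_card_of_fpf {β : Type*} (s : Finset β) (f : β → β) (hmem : ∀ q ∈ s, f q ∈ s)
    (hinv : ∀ q ∈ s, f (f q) = q) (hfpf : ∀ q ∈ s, f q ≠ q) : Even s.card := by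
  have h := Finset.sum_involution (s := s) (f := fun _ => (1 : ZMod 2)) (fun q _ => f q)
    (fun _ _ => by decide) (fun q hq _ => hfpf q hq) (fun q hq => hmem q hq)
    (fun q hq => hinv q hq)
  rw [Finset.sum_const, nsmul_eq_mul, mul_one] at h
  exact ZMod.natCast_eq_zero_iff_even.mp h

theorem exists_unique_fix [Finite α] (w : G) (hw : w * w = 1) (S : Set α)
    (hS : ∀ q ∈ S, w • q ∈ S) (hodd : Odd S.ncard) (p₁ p₂ : α)
    (hfix : ∀ q, w • q = q → q = p₁ ∨ q = p₂) :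
    ∃ p ∈ S, w • p = p ∧ ∀ q ∈ S, w • q = q → q = p := by
  classical
  haveI := Fintype.ofFinite α
  have hww : ∀ r : α, w • w • r = r := fun r => by rw [← mul_smul, hw, one_smul]
  have hc : S.ncard = S.toFinset.card := Set.ncard_eq_toFinset_card' S
  have heven : Even (S.toFinset.filter (fun q => ¬ w • q = q)).card := by
    apply even_card_of_fpf _ (fun q => w • q)
    · intro q hq
      rw [Finset.mem_filter, Set.mem_toFinset] at hq ⊢
      refine ⟨hS q hq.1, ?_⟩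
      rw [hww]
      exact fun h => hq.2 h.symm
    · intro q _
      exact hww q
    · intro q hq
      rw [Finset.mem_filter] at hq
      exact hq.2
  have hsum := Finset.card_filter_add_card_filter_not (s := S.toFinset)
    (fun q => w • q = q)
  have hoddF : Odd (S.toFinset.filter (fun q => w • q = q)).card := by
    rw [hc, ← hsum] at hodd
    exact (Nat.odd_add.mp hodd).mpr heven
  have hle : (S.toFinset.filter (fun q => w • q = q)).card ≤ 2 := by
    have hsub : S.toFinset.filter (fun q => w • q = q) ⊆ {p₁, p₂} := by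
      intro q hq
      rw [Finset.mem_filter] at hq
      rw [Finset.mem_insert, Finset.mem_singleton]
      exact hfix q hq.2
    exact (Finset.card_le_card hsub).trans Finset.card_le_two
  have hone : (S.toFinset.filter (fun q => w • q = q)).card = 1 := by
    obtain ⟨j, hj⟩ := hoddF
    omega
  obtain ⟨p, hp⟩ := Finset.card_eq_one.mp hone
  have hpm : p ∈ S.toFinset.filter (fun q => w • q = q) := by
    rw [hp]; exact Finset.mem_singleton_self p
  rw [Finset.mem_filter, Set.mem_toFinset] at hpm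
  refine ⟨p, hpm.1, hpm.2, ?_⟩
  intro q hq hwq
  have h1 : q ∈ S.toFinset.filter (fun q => w • q = q) := by
    rw [Finset.mem_filter, Set.mem_toFinset]; exact ⟨hq, hwq⟩
  rw [hp, Finset.mem_singleton] at h1
  exact h1

theorem odd_card_of_forall_odd [Finite G] (S : Subgroup G) (h : ∀ g ∈ S, Odd (orderOf g)) :
    Odd (Nat.card S) := by
  by_contra hcon
  rw [Nat.not_odd_iff_even, even_iff_two_dvd] at hcon
  haveI : Fact (Nat.Prime 2) := ⟨Nat.prime_two⟩
  obtain ⟨g, hg⟩ := exists_prime_orderOf_dvd_card' 2 hcon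
  have h1 := h (g : G) g.2
  rw [Subgroup.orderOf_coe, hg] at h1
  exact absurd h1 (by decide)

theorem odd_orbit_ncard [Finite G] (S : Subgroup G) (hS : Odd (Nat.card S)) (u : α) :
    Odd (orbit S u).ncard := by
  rw [← MulAction.index_stabilizer S u]
  exact Odd.of_dvd_nat hS (Subgroup.index_dvd_card _)

/-- pointwise stabilizer of four points -/
def stab4 (G : Type*) [Group G] {α : Type*} [MulAction G α] (a b c d : α) : Subgroup G :=
  stabilizer G a ⊓ stabilizer G b ⊓ stabilizer G c ⊓ stabilizer G d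

theorem mem_stab4 {a b c d : α} {g : G} :
    g ∈ stab4 G a b c d ↔ g • a = a ∧ g • b = b ∧ g • c = c ∧ g • d = d := by
  simp only [stab4, Subgroup.mem_inf, mem_stabilizer_iff, and_assoc]

theorem odd_card_stab4 [Finite G] (hyp : Hyp G α) (a b c d : α) (hd : Dist4 a b c d) :
    Odd (Nat.card (stab4 G a b c d)) :=
  odd_card_of_forall_odd _ fun g hg => by
    rw [mem_stab4] at hg
    exact hyp.odd g a b c d hd hg.1 hg.2.1 hg.2.2.1 hg.2.2.2

theorem conj_mem_stab4 (a b c d : α) (w : G) (hw : w * w = 1)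
    (hperm : ∀ q, (q = a ∨ q = b ∨ q = c ∨ q = d) →
      (w • q = a ∨ w • q = b ∨ w • q = c ∨ w • q = d)) :
    ∀ h ∈ stab4 G a b c d, w * h * w⁻¹ ∈ stab4 G a b c d := by
  intro h hh
  have hwinv : w⁻¹ = w := inv_eq_of_mul_eq_one_left hw
  rw [mem_stab4] at hh
  have hfix : ∀ q, (q = a ∨ q = b ∨ q = c ∨ q = d) → h • q = q := by
    rintro q (e | e | e | e) <;> rw [e]
    · exact hh.1
    · exact hh.2.1
    · exact hh.2.2.1
    · exact hh.2.2.2
  have key : ∀ q, (q = a ∨ q = b ∨ q = c ∨ q = d) → (w * h * w⁻¹) • q = q := by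
    intro q hq
    rw [hwinv, mul_smul, mul_smul, hfix _ (hperm q hq), ← mul_smul, hw, one_smul]
  rw [mem_stab4]
  exact ⟨key a (Or.inl rfl), key b (Or.inr (Or.inl rfl)), key c (Or.inr (Or.inr (Or.inl rfl))),
    key d (Or.inr (Or.inr (Or.inr rfl)))⟩

theorem isPGroup_zpowers_of_sq (s : G) (hs : s * s = 1) : IsPGroup 2 (Subgroup.zpowers s) := by
  rintro ⟨g, hg⟩
  obtain ⟨k, rfl⟩ := Subgroup.mem_zpowers_iff.mp hg
  refine ⟨1, Subtype.ext ?_⟩
  have h1 : (s ^ k) ^ 2 = 1 := by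
    rw [← zpow_natCast (s ^ k) 2, ← zpow_mul, mul_comm, zpow_mul, zpow_natCast, pow_two, hs,
      one_zpow]
  rw [pow_one]
  exact h1

/-- coprime generation for a four-group `⟨s, t⟩` normalizing an odd order subgroup `R`. -/
theorem gen_le [Finite G] (R : Subgroup G) (hR : Odd (Nat.card R)) (s t : G) (hs : s * s = 1)
    (ht : t * t = 1) (hst : s * t = t * s) (hsN : ∀ h ∈ R, s * h * s⁻¹ ∈ R)
    (htN : ∀ h ∈ R, t * h * t⁻¹ ∈ R) (Y : Subgroup G) (h1 : ∀ h ∈ R, h * s = s * h → h ∈ Y)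
    (h2 : ∀ h ∈ R, h * t = t * h → h ∈ Y) (h3 : ∀ h ∈ R, h * (s * t) = (s * t) * h → h ∈ Y) :
    R ≤ Y := by
  haveI : Fact (Nat.Prime 2) := ⟨Nat.prime_two⟩
  have hnorm : ∀ w : G, w * w = 1 → (∀ h ∈ R, w * h * w⁻¹ ∈ R) →
      w ∈ Subgroup.normalizer (R : Set G) := by
    intro w hw hwN
    rw [Subgroup.mem_normalizer_iff]
    intro h
    constructor
    · exact hwN h
    · intro hh
      have h4 := hwN _ hh
      have e : w * (w * h * w⁻¹) * w⁻¹ = (w * w) * h * (w * w)⁻¹ := by group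
      rw [e, hw] at h4
      simpa using h4
  have hc : s ∈ Subgroup.centralizer (Subgroup.zpowers t : Set G) := by
    rw [Subgroup.mem_centralizer_iff]
    intro h hh
    obtain ⟨k, rfl⟩ := Subgroup.mem_zpowers_iff.mp hh
    exact ((show Commute t s from hst.symm).zpow_left k).eq
  have hle : Subgroup.zpowers s ≤ Subgroup.normalizer (Subgroup.zpowers t : Set G) :=
    (Subgroup.zpowers_le.mpr hc).trans (Subgroup.centralizer_le_normalizer _)
  have hU : IsPGroup 2 (Subgroup.zpowers s ⊔ Subgroup.zpowers t : Subgroup G) :=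
    IsPGroup.to_sup_of_normal_right' (isPGroup_zpowers_of_sq s hs) (isPGroup_zpowers_of_sq t ht)
      hle
  have hUR : Subgroup.zpowers s ⊔ Subgroup.zpowers t ≤ Subgroup.normalizer (R : Set G) :=
    sup_le (Subgroup.zpowers_le.mpr (hnorm s hs hsN)) (Subgroup.zpowers_le.mpr (hnorm t ht htN))
  have hR2 : ¬ 2 ∣ Nat.card R := by
    rw [← even_iff_two_dvd, Nat.not_even_iff_odd]; exact hR
  have hgen := Cfsg.Agent.Lib.Helper48.coprime_generation R
    (Subgroup.zpowers s ⊔ Subgroup.zpowers t) hU hR2 hUR s t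
    (Subgroup.mem_sup_left (Subgroup.mem_zpowers s))
    (Subgroup.mem_sup_right (Subgroup.mem_zpowers t)) hst (by rw [pow_two, hs])
    (by rw [pow_two, ht])
  refine hgen.trans (sup_le ?_ (iSup_le fun i => ?_))
  · rintro h ⟨hhR, hhc⟩
    exact h2 h hhR ((Subgroup.mem_centralizer_iff.mp hhc) t (Set.mem_singleton t)).symm
  · rintro h ⟨hhR, hhc⟩
    have hc2 := (Subgroup.mem_centralizer_iff.mp hhc) (s * t ^ i) (Set.mem_singleton _)
    rcases Nat.even_or_odd i with ⟨j, hj⟩ | ⟨j, hj⟩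
    · have e : t ^ i = 1 := by rw [hj, ← two_mul, pow_mul, pow_two, ht, one_pow]
      rw [e, mul_one] at hc2
      exact h1 h hhR hc2.symm
    · have e : t ^ i = t := by rw [hj, pow_succ, pow_mul, pow_two, ht, one_pow, one_mul]
      rw [e] at hc2
      exact h3 h hhR hc2.symm

end Cfsg.Agent.Lib.Helper21.Hall
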