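import Mathlib
import Cfsg.Agent.Lib.Helper21.HallBasic

set_option autoImplicit false

namespace Cfsg.Agent.Lib.Helper21.Hall

open MulAction

variable {G : Type*} [Group G] {α : Type*} [MulAction G α]

theorem caseA_cover (hyp : Hyp G α) (x : G) (a b c d : α) (hd : Dist4 a b c d) (hx : x * x = 1)
    (hxa : x • a = a) (hxb : x • b = b) (hxc : x • c = d) (hxd : x • d = c)
    (hfix : ∀ p, x • p = p → p = a ∨ p = b)
    (u : α) (hu : ¬ (u = a ∨ u = b ∨ u = c ∨ u = d))
    (p : α) (hp : ¬ (p = a ∨ p = b ∨ p = c ∨ p = d)) :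
    p ∈ orbit (stab4 G a b c d) u ∨ p ∈ orbit (stab4 G a b c d) (x • u) := by
  obtain ⟨h12, h13, h14, h23, h24, h34⟩ := hd
  push Not at hu hp
  have hxx : ∀ r : α, x • x • r = r := fun r => by rw [← mul_smul, hx, one_smul]
  have hxu : x • u ≠ u := fun h => by
    rcases hfix u h with h | h
    · exact hu.1 h
    · exact hu.2.1 h
  have hxp : x • p ≠ p := fun h => by
    rcases hfix p h with h | h
    · exact hp.1 h
    · exact hp.2.1 h
  have hxv : x • x • u ≠ x • u := by rw [hxx]; exact hxu.symm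
  have hvc : x • u ≠ c := fun h => hu.2.2.2 (by rw [← hxx u, h, hxc])
  have hvd : x • u ≠ d := fun h => hu.2.2.1 (by rw [← hxx u, h, hxd])
  obtain ⟨g, hgx, hgc, hgd, hgu⟩ := exists_comm_map hyp x hx c d h34 hxc u p hxu hxp
    hu.2.2.1 hu.2.2.2 hp.2.2.1 hp.2.2.2
  obtain ⟨g', hgx', hgc', hgd', hgv'⟩ := exists_comm_map hyp x hx c d h34 hxc (x • u) p hxv hxp
    hvc hvd hp.2.2.1 hp.2.2.2
  have hab : ∀ k : G, k * x = x * k → (k • a = a ∨ k • a = b) ∧ (k • b = a ∨ k • b = b) := by
    intro k hk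
    constructor
    · apply hfix
      rw [← mul_smul, ← hk, mul_smul, hxa]
    · apply hfix
      rw [← mul_smul, ← hk, mul_smul, hxb]
  have hmem : ∀ k : G, k * x = x * k → k • c = c → k • d = d → k • a = a →
      k ∈ stab4 G a b c d := by
    intro k hk hkc hkd hka
    rw [mem_stab4]
    refine ⟨hka, ?_, hkc, hkd⟩
    rcases (hab k hk).2 with h | h
    · exact absurd (smul_left_cancel k (h.trans hka.symm)) h12.symm
    · exact h
  have hswap : ∀ k : G, k * x = x * k → k • a = b → k • b = a := by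
    intro k hk hka
    rcases (hab k hk).2 with h | h
    · exact h
    · exact absurd (smul_left_cancel k (h.trans hka.symm)) h12.symm
  rcases (hab g hgx).1 with hga | hga
  · left
    exact ⟨⟨g, hmem g hgx hgc hgd hga⟩, hgu⟩
  · rcases (hab g' hgx').1 with hga' | hga'
    · right
      exact ⟨⟨g', hmem g' hgx' hgc' hgd' hga'⟩, hgv'⟩
    · exfalso
      have hgb := hswap g hgx hga
      have hgb' := hswap g' hgx' hga'
      have he_a : (g'⁻¹ * g) • a = a := by rw [mul_smul, hga, inv_smul_eq_iff, hga']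
      have he_b : (g'⁻¹ * g) • b = b := by rw [mul_smul, hgb, inv_smul_eq_iff, hgb']
      have he_c : (g'⁻¹ * g) • c = c := by rw [mul_smul, hgc, inv_smul_eq_iff, hgc']
      have he_d : (g'⁻¹ * g) • d = d := by rw [mul_smul, hgd, inv_smul_eq_iff, hgd']
      have he_u : (g'⁻¹ * g) • u = x • u := by rw [mul_smul, hgu, inv_smul_eq_iff, hgv']
      have hodd := hyp.odd (g'⁻¹ * g) a b c d ⟨h12, h13, h14, h23, h24, h34⟩ he_a he_b he_c he_d
      have c1 : Commute g x := hgx
      have c2 : Commute g' x := hgx'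
      exact hxu (no_swap x (g'⁻¹ * g) hx (c2.inv_left.mul_left c1).eq hodd u he_u)

theorem lemmaW [Finite G] [Finite α] (hyp : Hyp G α) (a b c d u v : α) (hd : Dist4 a b c d)
    (hu : ¬ (u = a ∨ u = b ∨ u = c ∨ u = d))
    (cover : ∀ p, ¬ (p = a ∨ p = b ∨ p = c ∨ p = d) →
      p ∈ orbit (stab4 G a b c d) u ∨ p ∈ orbit (stab4 G a b c d) v)
    (w : G) (hw : w * w = 1)
    (hperm : ∀ q, (q = a ∨ q = b ∨ q = c ∨ q = d) →
      (w • q = a ∨ w • q = b ∨ w • q = c ∨ w • q = d) ∧ w • q ≠ q)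
    (p₁ p₂ : α) (hp₁ : w • p₁ = p₁) (hfix : ∀ q, w • q = q → q = p₁ ∨ q = p₂) :
    (∀ q ∈ orbit (stab4 G a b c d) u, w • q ∈ orbit (stab4 G a b c d) u) ∧
    ∃ p ∈ orbit (stab4 G a b c d) u, w • p = p ∧
      ∀ q ∈ orbit (stab4 G a b c d) u, w • q = q → q = p := by
  have hww : ∀ r : α, w • w • r = r := fun r => by rw [← mul_smul, hw, one_smul]
  have hnorm := conj_mem_stab4 a b c d w hw (fun q hq => (hperm q hq).1)
  have hout : ∀ q, ¬ (q = a ∨ q = b ∨ q = c ∨ q = d) →
      ¬ (w • q = a ∨ w • q = b ∨ w • q = c ∨ w • q = d) := by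
    intro q hq h
    have h1 := (hperm _ h).1
    rw [hww] at h1
    exact hq h1
  have horb : ∀ q r : α, q ∈ orbit (stab4 G a b c d) r →
      w • q ∈ orbit (stab4 G a b c d) (w • r) := by
    rintro q r ⟨h, rfl⟩
    refine ⟨⟨w * h * w⁻¹, hnorm h h.2⟩, ?_⟩
    show (w * (h : G) * w⁻¹) • w • r = w • (h : G) • r
    rw [mul_smul, mul_smul, inv_smul_smul]
  have hp₁P : ¬ (p₁ = a ∨ p₁ = b ∨ p₁ = c ∨ p₁ = d) := fun h => (hperm p₁ h).2 hp₁
  have inv : w • u ∈ orbit (stab4 G a b c d) u := by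
    rcases cover p₁ hp₁P with h | h
    · have h1 := horb p₁ u h
      rw [hp₁] at h1
      have e1 : orbit (stab4 G a b c d) p₁ = orbit (stab4 G a b c d) (w • u) :=
        orbit_eq_iff.mpr h1
      have e2 : orbit (stab4 G a b c d) p₁ = orbit (stab4 G a b c d) u := orbit_eq_iff.mpr h
      rw [← e2, e1]
      exact mem_orbit_self _
    · have h1 := horb p₁ v h
      rw [hp₁] at h1
      have e1 : orbit (stab4 G a b c d) p₁ = orbit (stab4 G a b c d) (w • v) :=
        orbit_eq_iff.mpr h1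
      have e2 : orbit (stab4 G a b c d) p₁ = orbit (stab4 G a b c d) v := orbit_eq_iff.mpr h
      rcases cover (w • u) (hout u hu) with h2 | h2
      · exact h2
      · rw [← e2, e1] at h2
        have h3 := horb _ _ h2
        rw [hww, hww] at h3
        have e3 : orbit (stab4 G a b c d) u = orbit (stab4 G a b c d) v := orbit_eq_iff.mpr h3
        rw [e3, ← e2, e1]
        exact h2
  have hinvO : ∀ q ∈ orbit (stab4 G a b c d) u, w • q ∈ orbit (stab4 G a b c d) u := by
    intro q hq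
    have h1 := horb q u hq
    rwa [orbit_eq_iff.mpr inv] at h1
  exact ⟨hinvO, exists_unique_fix w hw _ hinvO
    (odd_orbit_ncard _ (odd_card_stab4 hyp a b c d hd) u) p₁ p₂ hfix⟩

theorem caseA_fix [Finite G] [Finite α] (hyp : Hyp G α) (x : G) (a b c d : α)
    (hd : Dist4 a b c d) (hx : x * x = 1) (hxa : x • a = a) (hxb : x • b = b) (hxc : x • c = d)
    (hxd : x • d = c) (hfix : ∀ p, x • p = p → p = a ∨ p = b)
    (u : α) (hu : ¬ (u = a ∨ u = b ∨ u = c ∨ u = d)) :
    ∀ h ∈ stab4 G a b c d, h • u = u := by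
  have hd0 := hd
  obtain ⟨h12, h13, h14, h23, h24, h34⟩ := hd
  have hu' := hu
  push Not at hu'
  have hxx : ∀ r : α, x • x • r = r := fun r => by rw [← mul_smul, hx, one_smul]
  have hxu : x • u ≠ u := fun h => by
    rcases hfix u h with h | h
    · exact hu'.1 h
    · exact hu'.2.1 h
  have hdx : Dist4 c d u (x • u) := by
    refine ⟨h34, fun h => hu'.2.2.1 h.symm, ?_, fun h => hu'.2.2.2 h.symm, ?_, hxu.symm⟩
    · intro h; exact hu'.2.2.2 (by rw [← hxx u, ← h, hxc])
    · intro h; exact hu'.2.2.1 (by rw [← hxx u, ← h, hxd])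
  have cover := fun p hp => caseA_cover hyp x a b c d hd0 hx hxa hxb hxc hxd hfix u hu p hp
  obtain ⟨s, t, hs, ht, hst, sa, sb, sc, sd, ta, tc, tb, td⟩ := exists_four hyp a b c d hd0
  obtain ⟨k₁, hk₁, -⟩ := conj_of_two_cycles hyp x s hx hs c d u (x • u) hdx hxc rfl a b c d hd0
    sa sc
  obtain ⟨k₂, hk₂, -⟩ := conj_of_two_cycles hyp x t hx ht c d u (x • u) hdx hxc rfl a c b d
    ⟨h13, h12, h14, h23.symm, h34, h24⟩ ta tb
  have hst2 : (s * t) * (s * t) = 1 := by
    have e : (s * t) * (s * t) = s * (t * s) * t := by group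
    rw [e, ← hst]
    have e2 : s * (s * t) * t = (s * s) * (t * t) := by group
    rw [e2, hs, ht, one_mul]
  have sta : (s * t) • a = d := by rw [mul_smul, ta, sc]
  have stb : (s * t) • b = c := by rw [mul_smul, tb, sd]
  have stc : (s * t) • c = b := by rw [mul_smul, tc, sa]
  have std : (s * t) • d = a := by rw [mul_smul, td, sb]
  obtain ⟨k₃, hk₃, -⟩ := conj_of_two_cycles hyp x (s * t) hx hst2 c d u (x • u) hdx hxc rfl
    a d b c ⟨h14, h12, h13, h24.symm, h34.symm, h23⟩ sta stb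
  obtain ⟨f₁, g₁⟩ := fix_of_conj x s k₁ hk₁ a b hxa hfix
  obtain ⟨f₂, g₂⟩ := fix_of_conj x t k₂ hk₂ a b hxa hfix
  obtain ⟨f₃, g₃⟩ := fix_of_conj x (s * t) k₃ hk₃ a b hxa hfix
  obtain ⟨hsO, p, hpO, hsp, hsu⟩ := lemmaW hyp a b c d u (x • u) hd0 hu cover s hs (by
      rintro q (h | h | h | h) <;> rw [h] <;>
        simp [sa, sb, sc, sd, h12, h13, h14, h23, h24, h34, h12.symm, h13.symm, h14.symm,
          h23.symm, h24.symm, h34.symm]) (k₁ • a) (k₁ • b) f₁ g₁
  obtain ⟨htO, pt, hptO, htp, htu⟩ := lemmaW hyp a b c d u (x • u) hd0 hu cover t ht (by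
      rintro q (h | h | h | h) <;> rw [h] <;>
        simp [ta, tb, tc, td, h12, h13, h14, h23, h24, h34, h12.symm, h13.symm, h14.symm,
          h23.symm, h24.symm, h34.symm]) (k₂ • a) (k₂ • b) f₂ g₂
  obtain ⟨hstO, pst, hpstO, hstp, hstu⟩ := lemmaW hyp a b c d u (x • u) hd0 hu cover (s * t)
    hst2 (by
      rintro q (h | h | h | h) <;> rw [h] <;>
        simp [sta, stb, stc, std, h12, h13, h14, h23, h24, h34, h12.symm, h13.symm, h14.symm,
          h23.symm, h24.symm, h34.symm]) (k₃ • a) (k₃ • b) f₃ g₃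
  have htp' : t • p = p := by
    apply hsu (t • p) (htO p hpO)
    rw [← mul_smul, hst, mul_smul, hsp]
  have hstp' : (s * t) • p = p := by rw [mul_smul, htp', hsp]
  have hpt : p = pt := htu p hpO htp'
  have hpst : p = pst := hstu p hpO hstp'
  have hmemO : ∀ h ∈ stab4 G a b c d, h • p ∈ orbit (stab4 G a b c d) u := by
    intro h hh
    obtain ⟨h₀, hh₀⟩ := hpO
    refine ⟨⟨h, hh⟩ * h₀, ?_⟩
    show ((⟨h, hh⟩ : stab4 G a b c d) * h₀) • u = h • p
    rw [mul_smul]
    show h • (h₀ : G) • u = h • p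
    rw [show (h₀ : G) • u = p from hh₀]
  have hle : stab4 G a b c d ≤ stabilizer G p := by
    apply gen_le (stab4 G a b c d) (odd_card_stab4 hyp a b c d hd0) s t hs ht hst
      (conj_mem_stab4 a b c d s hs (by
        rintro q (h | h | h | h) <;> rw [h] <;> simp [sa, sb, sc, sd]))
      (conj_mem_stab4 a b c d t ht (by
        rintro q (h | h | h | h) <;> rw [h] <;> simp [ta, tb, tc, td]))
    · intro h hh hc
      rw [mem_stabilizer_iff]
      apply hsu (h • p) (hmemO h hh)
      rw [← mul_smul, ← hc, mul_smul, hsp]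
    · intro h hh hc
      rw [mem_stabilizer_iff]
      have h1 : h • p = pt := by
        apply htu (h • p) (hmemO h hh)
        rw [← mul_smul, ← hc, mul_smul, htp']
      rw [h1, ← hpt]
    · intro h hh hc
      rw [mem_stabilizer_iff]
      have h1 : h • p = pst := by
        apply hstu (h • p) (hmemO h hh)
        rw [← mul_smul, ← hc, mul_smul, hstp']
      rw [h1, ← hpst]
  intro h hh
  obtain ⟨h₀, hh₀⟩ := hpO
  have e1 : (h₀ : G) • u = p := hh₀
  have e2 : u = p := by
    have h1 := mem_stabilizer_iff.mp (hle (inv_mem h₀.2))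
    rw [← e1, inv_smul_smul] at h1
    rw [← e1]
    exact h1
  rw [e2]
  exact mem_stabilizer_iff.mp (hle hh)

/-- **Case A**: if some involution fixing `a, b` and swapping `c, d` has no further fixed point,
then the degree is at most `6`. -/
theorem caseA [Finite G] [Finite α] (hyp : Hyp G α) (x : G) (a b c d : α) (hd : Dist4 a b c d)
    (hx : x * x = 1) (hxa : x • a = a) (hxb : x • b = b) (hxc : x • c = d) (hxd : x • d = c)
    (hfix : ∀ p, x • p = p → p = a ∨ p = b) : Nat.card α ≤ 6 := by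
  classical
  haveI := Fintype.ofFinite α
  rw [Nat.card_eq_fintype_card, ← Finset.card_univ]
  by_cases hex : ∃ u : α, ¬ (u = a ∨ u = b ∨ u = c ∨ u = d)
  · obtain ⟨u, hu⟩ := hex
    have hxx : ∀ r : α, x • x • r = r := fun r => by rw [← mul_smul, hx, one_smul]
    have hv : ¬ (x • u = a ∨ x • u = b ∨ x • u = c ∨ x • u = d) := by
      rintro (h | h | h | h)
      · exact hu (Or.inl (by rw [← hxx u, h, hxa]))
      · exact hu (Or.inr (Or.inl (by rw [← hxx u, h, hxb])))
      · exact hu (Or.inr (Or.inr (Or.inr (by rw [← hxx u, h, hxc]))))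
      · exact hu (Or.inr (Or.inr (Or.inl (by rw [← hxx u, h, hxd]))))
    have h1 := caseA_fix hyp x a b c d hd hx hxa hxb hxc hxd hfix u hu
    have h2 := caseA_fix hyp x a b c d hd hx hxa hxb hxc hxd hfix (x • u) hv
    have hsub : (Finset.univ : Finset α) ⊆ {a, b, c, d, u, x • u} := by
      intro p _
      simp only [Finset.mem_insert, Finset.mem_singleton]
      by_cases hp : p = a ∨ p = b ∨ p = c ∨ p = d
      · tauto
      · rcases caseA_cover hyp x a b c d hd hx hxa hxb hxc hxd hfix u hu p hp with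
          ⟨h, rfl⟩ | ⟨h, rfl⟩
        · right; right; right; right; left
          exact h1 h h.2
        · right; right; right; right; right
          exact h2 h h.2
    exact (Finset.card_le_card hsub).trans Finset.card_le_six
  · push Not at hex
    have hsub : (Finset.univ : Finset α) ⊆ {a, b, c, d} := by
      intro p _
      simp only [Finset.mem_insert, Finset.mem_singleton]
      exact hex p
    exact (Finset.card_le_card hsub).trans (Finset.card_le_four.trans (by norm_num))

end Cfsg.Agent.Lib.Helper21.Hall
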