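import Mathlib
import Cfsg.Agent.Lib.Helper21.HallBasic

set_option autoImplicit false

namespace Cfsg.Agent.Lib.Helper21.Hall

open MulAction

variable {G : Type*} [Group G] {α : Type*} [MulAction G α]

theorem caseB_setup (hyp : Hyp G α) (x : G) (a b c d e : α) (hd : Dist4 a b c d)
    (hx : x * x = 1) (hxa : x • a = a) (hxb : x • b = b) (hxc : x • c = d) (hxd : x • d = c)
    (hxe : x • e = e) (hea : e ≠ a) (heb : e ≠ b) :
    e ≠ c ∧ e ≠ d ∧ (∀ p, x • p = p → p = a ∨ p = b ∨ p = e) ∧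
    ∃ y : G, y * y = 1 ∧ y * x = x * y ∧ y • a = b ∧ y • b = a ∧ y • c = c ∧ y • d = d ∧
      y • e = e ∧ (∀ p, y • p = p → p = c ∨ p = d ∨ p = e) := by
  obtain ⟨h12, h13, h14, h23, h24, h34⟩ := hd
  have hec : e ≠ c := fun h => h34 (by rw [← hxc, ← h, hxe])
  have hed : e ≠ d := fun h => h34 (by rw [← hxd, ← h, hxe])
  have hx1 : x ≠ 1 := fun h => h34 (by rw [← hxc, h, one_smul])
  have hfx : ∀ p : α, x • p = p → p = a ∨ p = b ∨ p = e :=
    fun p hp => fix_mem_of_three hyp x hx hx1 a b e p h12 hea.symm heb.symm hxa hxb hxe hp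
  obtain ⟨y, hy, hyx, ya, yb, yc, yd⟩ := exists_y hyp x hx a b c d
    ⟨h12, h13, h14, h23, h24, h34⟩ hxa hxb hxc hxd
  have hyy : ∀ r : α, y • y • r = r := fun r => by rw [← mul_smul, hy, one_smul]
  have ye : y • e = e := by
    have h1 : x • (y • e) = y • e := by rw [← mul_smul, ← hyx, mul_smul, hxe]
    rcases hfx _ h1 with h | h | h
    · exact absurd (by rw [← hyy e, h, ya]) heb
    · exact absurd (by rw [← hyy e, h, yb]) hea
    · exact h
  have hy1 : y ≠ 1 := fun h => h12 (by rw [← yb, h, one_smul])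
  exact ⟨hec, hed, hfx, y, hy, hyx, ya, yb, yc, yd, ye, fun p hp =>
    fix_mem_of_three hyp y hy hy1 c d e p h34 hec.symm hed.symm yc yd ye hp⟩

theorem lemmaA_B (hyp : Hyp G α) (hfaith : ∀ g : G, (∀ p : α, g • p = p) → g = 1)
    (x : G) (a b c d e : α) (hd : Dist4 a b c d)
    (hx : x * x = 1) (hxa : x • a = a) (hxb : x • b = b) (hxc : x • c = d)
    (hxe : x • e = e) (hfx : ∀ p, x • p = p → p = a ∨ p = b ∨ p = e)
    (hfixe : ∀ h ∈ stab4 G a b c d, h • e = e)
    (u : α) (hu : ¬ (u = a ∨ u = b ∨ u = c ∨ u = d ∨ u = e))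
    (hEu : ∀ ε ∈ stab4 G a b c d, ε * x = x * ε → ε • u = u) :
    ∀ ε ∈ stab4 G a b c d, ε * x = x * ε → ε = 1 := by
  intro ε hε hεx
  have hε' := mem_stab4.mp hε
  apply hfaith
  intro p
  by_cases hp : p = a ∨ p = b ∨ p = c ∨ p = d ∨ p = e
  · rcases hp with h | h | h | h | h <;> rw [h]
    · exact hε'.1
    · exact hε'.2.1
    · exact hε'.2.2.1
    · exact hε'.2.2.2
    · exact hfixe ε hε
  · push Not at hu hp
    have hxu : x • u ≠ u := fun h => by
      rcases hfx u h with h | h | h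
      · exact hu.1 h
      · exact hu.2.1 h
      · exact hu.2.2.2.2 h
    have hxp : x • p ≠ p := fun h => by
      rcases hfx p h with h | h | h
      · exact hp.1 h
      · exact hp.2.1 h
      · exact hp.2.2.2.2 h
    obtain ⟨g₁, hg₁x, hg₁c, hg₁d, hg₁u⟩ := exists_comm_map hyp x hx c d hd.2.2.2.2.2 hxc u p
      hxu hxp hu.2.2.1 hu.2.2.2.1 hp.2.2.1 hp.2.2.2.1
    have hfixabe : ∀ r : α, x • r = r → ε • r = r := by
      intro r hr
      rcases hfx r hr with h | h | h <;> rw [h]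
      · exact hε'.1
      · exact hε'.2.1
      · exact hfixe ε hε
    have hg₁fix : ∀ r : α, x • r = r → x • (g₁ • r) = g₁ • r := by
      intro r hr
      rw [← mul_smul, ← hg₁x, mul_smul, hr]
    have hε'mem : g₁⁻¹ * ε * g₁ ∈ stab4 G a b c d := by
      rw [mem_stab4]
      refine ⟨?_, ?_, ?_, ?_⟩
      · rw [mul_smul, mul_smul, hfixabe _ (hg₁fix a hxa), inv_smul_smul]
      · rw [mul_smul, mul_smul, hfixabe _ (hg₁fix b hxb), inv_smul_smul]
      · rw [mul_smul, mul_smul, hg₁c, hε'.2.2.1, inv_smul_eq_iff, hg₁c]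
      · rw [mul_smul, mul_smul, hg₁d, hε'.2.2.2, inv_smul_eq_iff, hg₁d]
    have hcomm : (g₁⁻¹ * ε * g₁) * x = x * (g₁⁻¹ * ε * g₁) := by
      have c1 : Commute g₁ x := hg₁x
      have c2 : Commute ε x := hεx
      exact ((c1.inv_left.mul_left c2).mul_left c1).eq
    have h1 := hEu _ hε'mem hcomm
    rw [mul_smul, mul_smul, hg₁u, inv_smul_eq_iff, hg₁u] at h1
    exact h1

theorem fix_conj (hyp : Hyp G α) (a b c d e : α) (hd : Dist4 a b c d)
    (hne : ¬ (e = a ∨ e = b ∨ e = c ∨ e = d))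
    (hfixe : ∀ h ∈ stab4 G a b c d, h • e = e)
    (honly : ∀ q, (∀ h ∈ stab4 G a b c d, h • q = q) → q = a ∨ q = b ∨ q = c ∨ q = d ∨ q = e)
    (a' b' c' d' : α) (hd' : Dist4 a' b' c' d') :
    ∃ e' : α, ¬ (e' = a' ∨ e' = b' ∨ e' = c' ∨ e' = d') ∧
      (∀ h ∈ stab4 G a' b' c' d', h • e' = e') ∧
      ∀ q, (∀ h ∈ stab4 G a' b' c' d', h • q = q) →
        q = a' ∨ q = b' ∨ q = c' ∨ q = d' ∨ q = e' := by
  obtain ⟨g, ga, gb, gc, gd⟩ := hyp.tr a b c d a' b' c' d' hd hd'
  have hinv : ∀ r s : α, g • r = s → g⁻¹ • s = r := fun r s h => by rw [← h, inv_smul_smul]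
  have hto : ∀ h ∈ stab4 G a' b' c' d', g⁻¹ * h * g ∈ stab4 G a b c d := by
    intro h hh
    rw [mem_stab4] at hh ⊢
    refine ⟨?_, ?_, ?_, ?_⟩
    · rw [mul_smul, mul_smul, ga, hh.1, hinv a a' ga]
    · rw [mul_smul, mul_smul, gb, hh.2.1, hinv b b' gb]
    · rw [mul_smul, mul_smul, gc, hh.2.2.1, hinv c c' gc]
    · rw [mul_smul, mul_smul, gd, hh.2.2.2, hinv d d' gd]
  have hfrom : ∀ h ∈ stab4 G a b c d, g * h * g⁻¹ ∈ stab4 G a' b' c' d' := by
    intro h hh
    rw [mem_stab4] at hh ⊢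
    refine ⟨?_, ?_, ?_, ?_⟩
    · rw [mul_smul, mul_smul, hinv a a' ga, hh.1, ga]
    · rw [mul_smul, mul_smul, hinv b b' gb, hh.2.1, gb]
    · rw [mul_smul, mul_smul, hinv c c' gc, hh.2.2.1, gc]
    · rw [mul_smul, mul_smul, hinv d d' gd, hh.2.2.2, gd]
  refine ⟨g • e, ?_, ?_, ?_⟩
  · rintro (h | h | h | h)
    · exact hne (Or.inl (smul_left_cancel g (h.trans ga.symm)))
    · exact hne (Or.inr (Or.inl (smul_left_cancel g (h.trans gb.symm))))
    · exact hne (Or.inr (Or.inr (Or.inl (smul_left_cancel g (h.trans gc.symm)))))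
    · exact hne (Or.inr (Or.inr (Or.inr (smul_left_cancel g (h.trans gd.symm)))))
  · intro h hh
    have h1 := hfixe _ (hto h hh)
    rw [mul_smul, mul_smul, inv_smul_eq_iff] at h1
    exact h1
  · intro q hq
    have h1 : ∀ h ∈ stab4 G a b c d, h • (g⁻¹ • q) = g⁻¹ • q := by
      intro h hh
      have h2 := hq _ (hfrom h hh)
      rw [mul_smul, mul_smul] at h2
      rw [eq_inv_smul_iff]
      exact h2
    rcases honly _ h1 with h | h | h | h | h
    · left; rw [← ga, ← h, smul_inv_smul]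
    · right; left; rw [← gb, ← h, smul_inv_smul]
    · right; right; left; rw [← gc, ← h, smul_inv_smul]
    · right; right; right; left; rw [← gd, ← h, smul_inv_smul]
    · right; right; right; right; rw [← h, smul_inv_smul]

theorem unique_invol (hyp : Hyp G α) (hfaith : ∀ g : G, (∀ p : α, g • p = p) → g = 1)
    (hC2 : ∀ a' b' c' d' : α, Dist4 a' b' c' d' →
      ∃ e' : α, ¬ (e' = a' ∨ e' = b' ∨ e' = c' ∨ e' = d') ∧
      (∀ h ∈ stab4 G a' b' c' d', h • e' = e') ∧
      ∀ q, (∀ h ∈ stab4 G a' b' c' d', h • q = q) →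
        q = a' ∨ q = b' ∨ q = c' ∨ q = d' ∨ q = e')
    (p₁ p₂ p₃ : α) (h12 : p₁ ≠ p₂) (h13 : p₁ ≠ p₃) (h23 : p₂ ≠ p₃)
    (t t' : G) (ht : t * t = 1) (ht' : t' * t' = 1) (ht1 : t ≠ 1) (ht'1 : t' ≠ 1)
    (f1 : t • p₁ = p₁) (f2 : t • p₂ = p₂) (f3 : t • p₃ = p₃)
    (f1' : t' • p₁ = p₁) (f2' : t' • p₂ = p₂) (f3' : t' • p₃ = p₃) : t = t' := by
  have key : ∀ s : G, s * s = 1 → s ≠ 1 → s • p₁ = p₁ → s • p₂ = p₂ → s • p₃ = p₃ →
      ∀ q : α, ¬ (q = p₁ ∨ q = p₂ ∨ q = p₃) → ∀ e' : α,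
      ¬ (e' = p₁ ∨ e' = p₂ ∨ e' = p₃ ∨ e' = q) →
      (∀ h ∈ stab4 G p₁ p₂ p₃ q, h • e' = e') → s • q = e' := by
    intro s hs hs1 g1 g2 g3 q hq e' he' hfe'
    have hss : ∀ r : α, s • s • r = r := fun r => by rw [← mul_smul, hs, one_smul]
    have hfs : ∀ p : α, s • p = p → p = p₁ ∨ p = p₂ ∨ p = p₃ :=
      fun p hp => fix_mem_of_three hyp s hs hs1 p₁ p₂ p₃ p h12 h13 h23 g1 g2 g3 hp
    push Not at hq
    have hsq : s • q ≠ q := fun h => by
      rcases hfs q h with h | h | h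
      · exact hq.1 h
      · exact hq.2.1 h
      · exact hq.2.2 h
    have hsq1 : s • q ≠ p₁ := fun h => hq.1 (by rw [← hss q, h, g1])
    have hsq2 : s • q ≠ p₂ := fun h => hq.2.1 (by rw [← hss q, h, g2])
    have hdS : Dist4 p₁ p₂ q (s • q) :=
      ⟨h12, fun h => hq.1 h.symm, fun h => hsq1 h.symm, fun h => hq.2.1 h.symm,
        fun h => hsq2 h.symm, hsq.symm⟩
    obtain ⟨e'', hne'', hfix'', honly''⟩ := hC2 p₁ p₂ q (s • q) hdS
    have hnormS := conj_mem_stab4 p₁ p₂ q (s • q) s hs (by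
      rintro r (h | h | h | h) <;> rw [h]
      · left; exact g1
      · right; left; exact g2
      · right; right; right; rfl
      · right; right; left; exact hss q)
    have hsinv : s⁻¹ = s := inv_eq_of_mul_eq_one_left hs
    have h1 : ∀ h ∈ stab4 G p₁ p₂ q (s • q), h • (s • e'') = s • e'' := by
      intro h hh
      have h2 := hfix'' _ (hnormS h hh)
      rw [hsinv, mul_smul, mul_smul] at h2
      have h3 : s • (s • h • s • e'') = s • e'' := by rw [h2]
      rw [hss] at h3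
      exact h3
    push Not at hne''
    have hse'' : s • e'' = e'' := by
      rcases honly'' _ h1 with h | h | h | h | h
      · exact absurd (by rw [← hss e'', h, g1]) hne''.1
      · exact absurd (by rw [← hss e'', h, g2]) hne''.2.1
      · exact absurd (by rw [← hss e'', h]) hne''.2.2.2
      · exact absurd (smul_left_cancel s h) hne''.2.2.1
      · exact h
    have he''3 : e'' = p₃ := by
      rcases hfs e'' hse'' with h | h | h
      · exact absurd h hne''.1
      · exact absurd h hne''.2.1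
      · exact h
    have hle : ∀ h ∈ stab4 G p₁ p₂ q (s • q), h ∈ stab4 G p₁ p₂ p₃ q := by
      intro h hh
      have h5 := hfix'' h hh
      rw [he''3] at h5
      rw [mem_stab4] at hh ⊢
      exact ⟨hh.1, hh.2.1, h5, hh.2.2.1⟩
    have h6 : ∀ h ∈ stab4 G p₁ p₂ q (s • q), h • e' = e' := fun h hh => hfe' h (hle h hh)
    push Not at he'
    rcases honly'' e' h6 with h | h | h | h | h
    · exact absurd h he'.1
    · exact absurd h he'.2.1
    · exact absurd h he'.2.2.2
    · exact h.symm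
    · exact absurd (h.trans he''3) he'.2.2.1
  have hall : ∀ q : α, t • q = t' • q := by
    intro q
    by_cases hq : q = p₁ ∨ q = p₂ ∨ q = p₃
    · rcases hq with h | h | h <;> rw [h]
      · rw [f1, f1']
      · rw [f2, f2']
      · rw [f3, f3']
    · have hq' := hq
      push Not at hq'
      obtain ⟨e', hne', hfix', -⟩ := hC2 p₁ p₂ p₃ q
        ⟨h12, h13, fun h => hq'.1 h.symm, h23, fun h => hq'.2.1 h.symm, fun h => hq'.2.2 h.symm⟩
      rw [key t ht ht1 f1 f2 f3 q hq e' hne' hfix', key t' ht' ht'1 f1' f2' f3' q hq e' hne' hfix']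
  have h1 : t⁻¹ * t' = 1 := by
    apply hfaith
    intro p
    rw [mul_smul, ← hall p, inv_smul_smul]
  exact inv_mul_eq_one.mp h1

/-- **Case B, sub-case (I)**: if the 4-point stabilizer fixes the third fixed point of `x`,
it is trivial. -/
theorem caseB_triv [Finite G] (hyp : Hyp G α) (hfaith : ∀ g : G, (∀ p : α, g • p = p) → g = 1)
    (x : G) (a b c d e : α) (hd : Dist4 a b c d)
    (hx : x * x = 1) (hxa : x • a = a) (hxb : x • b = b) (hxc : x • c = d) (hxd : x • d = c)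
    (hxe : x • e = e) (hea : e ≠ a) (heb : e ≠ b)
    (hfixe : ∀ h ∈ stab4 G a b c d, h • e = e) :
    ∀ h ∈ stab4 G a b c d, h = 1 := by
  have hd0 := hd
  obtain ⟨hec, hed, hfx, y, hy, hyx, ya, yb, yc, yd, ye, hfy⟩ :=
    caseB_setup hyp x a b c d e hd hx hxa hxb hxc hxd hxe hea heb
  obtain ⟨h12, h13, h14, h23, h24, h34⟩ := hd
  have hxx : ∀ r : α, x • x • r = r := fun r => by rw [← mul_smul, hx, one_smul]
  by_cases hex : ∃ u₁ : α, ¬ (u₁ = a ∨ u₁ = b ∨ u₁ = c ∨ u₁ = d ∨ u₁ = e)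
  swap
  · push Not at hex
    intro g hg
    have hg' := mem_stab4.mp hg
    apply hfaith
    intro p
    rcases hex p with e1 | e1 | e1 | e1 | e1 <;> rw [e1]
    · exact hg'.1
    · exact hg'.2.1
    · exact hg'.2.2.1
    · exact hg'.2.2.2
    · exact hfixe g hg
  obtain ⟨u₁, hu₁⟩ := hex
  have hxy : x * y = y * x := hyx.symm
  have hz : (x * y) * (x * y) = 1 := by
    have e1 : (x * y) * (x * y) = x * (y * x) * y := by group
    rw [e1, hyx]
    have e2 : x * (x * y) * y = (x * x) * (y * y) := by group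
    rw [e2, hx, hy, one_mul]
  have za : (x * y) • a = b := by rw [mul_smul, ya, hxb]
  have zb : (x * y) • b = a := by rw [mul_smul, yb, hxa]
  have zc : (x * y) • c = d := by rw [mul_smul, yc, hxc]
  have zd : (x * y) • d = c := by rw [mul_smul, yd, hxd]
  have ze : (x * y) • e = e := by rw [mul_smul, ye, hxe]
  have hz1 : x * y ≠ 1 := fun h => h12 (by rw [← za, h, one_smul])
  have hu₁' := hu₁
  push Not at hu₁'
  have hxu₁ : x • u₁ ≠ u₁ := fun h => by
    rcases hfx u₁ h with h | h | h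
    · exact hu₁'.1 h
    · exact hu₁'.2.1 h
    · exact hu₁'.2.2.2.2 h
  have hd1 : Dist4 c d u₁ (x • u₁) := by
    refine ⟨h34, fun h => hu₁'.2.2.1 h.symm, ?_, fun h => hu₁'.2.2.2.1 h.symm, ?_, hxu₁.symm⟩
    · intro h; exact hu₁'.2.2.2.1 (by rw [← hxx u₁, ← h, hxc])
    · intro h; exact hu₁'.2.2.1 (by rw [← hxx u₁, ← h, hxd])
  obtain ⟨k, hk, -⟩ := conj_of_two_cycles hyp x (x * y) hx hz c d u₁ (x • u₁) hd1 hxc rfl
    a b c d hd0 za zc
  have hzka : (x * y) • (k • a) = k • a := by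
    rw [hk, mul_smul, mul_smul, inv_smul_smul, hxa]
  have hzkb : (x * y) • (k • b) = k • b := by
    rw [hk, mul_smul, mul_smul, inv_smul_smul, hxb]
  have hkab : k • a ≠ k • b := fun h => h12 (smul_left_cancel k h)
  obtain ⟨u, hzu, hue⟩ : ∃ u : α, (x * y) • u = u ∧ u ≠ e := by
    by_cases h : k • a = e
    · exact ⟨k • b, hzkb, fun h' => hkab (h.trans h'.symm)⟩
    · exact ⟨k • a, hzka, h⟩
  have hua : u ≠ a := fun h => h12 (by rw [← za, ← h, hzu])
  have hub : u ≠ b := fun h => h12 (by rw [← zb, ← h, hzu])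
  have huc : u ≠ c := fun h => h34 (by rw [← zc, ← h, hzu])
  have hud : u ≠ d := fun h => h34 (by rw [← zd, ← h, hzu])
  have hxu : x • u ≠ u := fun h => by
    rcases hfx u h with h | h | h
    · exact hua h
    · exact hub h
    · exact hue h
  have hzv : (x * y) • (x • u) = x • u := by
    have c1 : Commute (x * y) x := (Commute.refl x).mul_left (show Commute y x from hyx)
    rw [← mul_smul, c1.eq, mul_smul, hzu]
  have hve : x • u ≠ e := fun h => hue (by rw [← hxx u, h, hxe])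
  have hfz : ∀ p : α, (x * y) • p = p → p = e ∨ p = u ∨ p = x • u :=
    fun p hp => fix_mem_of_three hyp (x * y) hz hz1 e u (x • u) p hue.symm hve.symm hxu.symm
      ze hzu hzv hp
  have hu : ¬ (u = a ∨ u = b ∨ u = c ∨ u = d ∨ u = e) := by
    rintro (h | h | h | h | h)
    exacts [hua h, hub h, huc h, hud h, hue h]
  have hHz : ∀ h ∈ stab4 G a b c d, h * (x * y) = (x * y) * h := by
    by_cases hE : ∀ ε ∈ stab4 G a b c d, ε * x = x * ε → ε = 1
    · obtain ⟨g₀, g0a, g0b, g0c, g0d⟩ := hyp.tr a b c d c d a b hd0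
        ⟨h34, h13.symm, h23.symm, h14.symm, h24.symm, h12⟩
      have hinv : ∀ r s : α, g₀ • r = s → g₀⁻¹ • s = r :=
        fun r s h => by rw [← h, inv_smul_smul]
      have ht2 : (g₀ * x * g₀⁻¹) * (g₀ * x * g₀⁻¹) = 1 := by
        have e1 : (g₀ * x * g₀⁻¹) * (g₀ * x * g₀⁻¹) = g₀ * (x * x) * g₀⁻¹ := by group
        rw [e1, hx]; group
      obtain ⟨k₀, k0a, k0b, k0c, k0d, hk₀⟩ := conj_of_agree hyp y (g₀ * x * g₀⁻¹) hy ht2
        a b c d hd0
        (by rw [mul_smul, mul_smul, hinv c a g0c, hxc, g0d, ya])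
        (by rw [mul_smul, mul_smul, hinv d b g0d, hxd, g0c, yb])
        (by rw [mul_smul, mul_smul, hinv a c g0a, hxa, g0a, yc])
        (by rw [mul_smul, mul_smul, hinv b d g0b, hxb, g0b, yd])
      obtain ⟨m, hm⟩ : ∃ m : G, m = k₀ * g₀ := ⟨_, rfl⟩
      have ma : m • a = c := by rw [hm, mul_smul, g0a, k0c]
      have mb : m • b = d := by rw [hm, mul_smul, g0b, k0d]
      have mc : m • c = a := by rw [hm, mul_smul, g0c, k0a]
      have md : m • d = b := by rw [hm, mul_smul, g0d, k0b]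
      have hym : m⁻¹ * y * m = x := by
        have e1 : y * k₀ = k₀ * (g₀ * x * g₀⁻¹) := by rw [← hk₀]; group
        have e2 : m⁻¹ * y * m = g₀⁻¹ * k₀⁻¹ * (y * k₀) * g₀ := by rw [hm]; group
        rw [e2, e1]; group
      have hCy : ∀ ε ∈ stab4 G a b c d, ε * y = y * ε → ε = 1 := by
        intro ε hε hεy
        have hε' := mem_stab4.mp hε
        have hmem : m⁻¹ * ε * m ∈ stab4 G a b c d := by
          rw [mem_stab4]
          refine ⟨?_, ?_, ?_, ?_⟩
          · rw [mul_smul, mul_smul, ma, hε'.2.2.1, inv_smul_eq_iff, ma]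
          · rw [mul_smul, mul_smul, mb, hε'.2.2.2, inv_smul_eq_iff, mb]
          · rw [mul_smul, mul_smul, mc, hε'.1, inv_smul_eq_iff, mc]
          · rw [mul_smul, mul_smul, md, hε'.2.1, inv_smul_eq_iff, md]
        have hcomm : (m⁻¹ * ε * m) * x = x * (m⁻¹ * ε * m) := by
          calc (m⁻¹ * ε * m) * x = (m⁻¹ * ε * m) * (m⁻¹ * y * m) := by rw [hym]
            _ = m⁻¹ * (ε * y) * m := by group
            _ = m⁻¹ * (y * ε) * m := by rw [hεy]
            _ = (m⁻¹ * y * m) * (m⁻¹ * ε * m) := by group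
            _ = x * (m⁻¹ * ε * m) := by rw [hym]
        have h1 := hE _ hmem hcomm
        calc ε = m * (m⁻¹ * ε * m) * m⁻¹ := by group
          _ = 1 := by rw [h1]; group
      have hcz : stab4 G a b c d ≤ Subgroup.centralizer ({x * y} : Set G) := by
        apply gen_le (stab4 G a b c d) (odd_card_stab4 hyp a b c d hd0) x y hx hy hxy
          (conj_mem_stab4 a b c d x hx (by
            rintro q (h | h | h | h) <;> rw [h] <;> simp [hxa, hxb, hxc, hxd]))
          (conj_mem_stab4 a b c d y hy (by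
            rintro q (h | h | h | h) <;> rw [h] <;> simp [ya, yb, yc, yd]))
        · intro ε hε hc
          rw [hE ε hε hc]; exact Subgroup.one_mem _
        · intro ε hε hc
          rw [hCy ε hε hc]; exact Subgroup.one_mem _
        · intro ε hε hc
          rw [Subgroup.mem_centralizer_iff]
          intro g hg
          rw [Set.mem_singleton_iff] at hg
          rw [hg]; exact hc.symm
      intro g hg
      exact (Subgroup.mem_centralizer_iff.mp (hcz hg) (x * y) (Set.mem_singleton _)).symm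
    · push Not at hE
      obtain ⟨ε₀, hε₀, hε₀x, hε₀1⟩ := hE
      have honly : ∀ q : α, (∀ h ∈ stab4 G a b c d, h • q = q) →
          q = a ∨ q = b ∨ q = c ∨ q = d ∨ q = e := by
        intro q hq
        by_contra hcon
        exact hε₀1 (lemmaA_B hyp hfaith x a b c d e hd0 hx hxa hxb hxc hxe hfx hfixe q hcon
          (fun ε hε _ => hq ε hε) ε₀ hε₀ hε₀x)
      have hC2 := fix_conj hyp a b c d e hd0 (by
        rintro (h | h | h | h)
        exacts [hea h, heb h, hec h, hed h]) hfixe honly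
      have hUI := unique_invol hyp hfaith hC2
      intro g hg
      have hg' := mem_stab4.mp hg
      have hginv : ∀ r : α, g • r = r → g⁻¹ • r = r := fun r h => by rw [inv_smul_eq_iff, h]
      have hx1 : x ≠ 1 := fun h => h34 (by rw [← hxc, h, one_smul])
      have hy1 : y ≠ 1 := fun h => h12 (by rw [← yb, h, one_smul])
      have e1 : x = g * x * g⁻¹ := by
        apply hUI a b e h12 hea.symm heb.symm x (g * x * g⁻¹) hx ?_ hx1 ?_ hxa hxb hxe ?_ ?_ ?_
        · have e : (g * x * g⁻¹) * (g * x * g⁻¹) = g * (x * x) * g⁻¹ := by group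
          rw [e, hx]; group
        · intro h
          exact hx1 (by
            calc x = g⁻¹ * (g * x * g⁻¹) * g := by group
              _ = 1 := by rw [h]; group)
        · rw [mul_smul, mul_smul, hginv a hg'.1, hxa, hg'.1]
        · rw [mul_smul, mul_smul, hginv b hg'.2.1, hxb, hg'.2.1]
        · rw [mul_smul, mul_smul, hginv e (hfixe g hg), hxe, hfixe g hg]
      have e2 : y = g * y * g⁻¹ := by
        apply hUI c d e h34 hec.symm hed.symm y (g * y * g⁻¹) hy ?_ hy1 ?_ yc yd ye ?_ ?_ ?_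
        · have e : (g * y * g⁻¹) * (g * y * g⁻¹) = g * (y * y) * g⁻¹ := by group
          rw [e, hy]; group
        · intro h
          exact hy1 (by
            calc y = g⁻¹ * (g * y * g⁻¹) * g := by group
              _ = 1 := by rw [h]; group)
        · rw [mul_smul, mul_smul, hginv c hg'.2.2.1, yc, hg'.2.2.1]
        · rw [mul_smul, mul_smul, hginv d hg'.2.2.2, yd, hg'.2.2.2]
        · rw [mul_smul, mul_smul, hginv e (hfixe g hg), ye, hfixe g hg]
      have c1 : g * x = x * g := by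
        calc g * x = (g * x * g⁻¹) * g := by group
          _ = x * g := by rw [← e1]
      have c2 : g * y = y * g := by
        calc g * y = (g * y * g⁻¹) * g := by group
          _ = y * g := by rw [← e2]
      calc g * (x * y) = (g * x) * y := by group
        _ = x * (g * y) := by rw [c1]; group
        _ = (x * y) * g := by rw [c2]; group
  have hHu : ∀ h ∈ stab4 G a b c d, h • u = u := by
    intro h hh
    have hh' := mem_stab4.mp hh
    have hodd := hyp.odd h a b c d hd0 hh'.1 hh'.2.1 hh'.2.2.1 hh'.2.2.2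
    have hfixz : ∀ r : α, (x * y) • r = r → (x * y) • (h • r) = h • r := by
      intro r hr
      rw [← mul_smul, ← hHz h hh, mul_smul, hr]
    rcases hfz _ (hfixz u hzu) with h1 | h1 | h1
    · exact absurd (smul_left_cancel h (h1.trans (hfixe h hh).symm)) hue
    · exact h1
    · exfalso
      rcases hfz _ (hfixz _ hzv) with h2 | h2 | h2
      · exact hve (smul_left_cancel h (h2.trans (hfixe h hh).symm))
      · have h3 : h • h • u = u := by rw [h1, h2]
        have h4 := smul_eq_of_sq_smul h u hodd h3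
        exact hxu (h1.symm.trans h4)
      · exact hxu (smul_left_cancel h (h2.trans h1.symm))
  have hHv : ∀ h ∈ stab4 G a b c d, h • (x • u) = x • u := by
    intro h hh
    have hfixz : (x * y) • (h • (x • u)) = h • (x • u) := by
      rw [← mul_smul, ← hHz h hh, mul_smul, hzv]
    rcases hfz _ hfixz with h2 | h2 | h2
    · exact absurd (smul_left_cancel h (h2.trans (hfixe h hh).symm)) hve
    · exact absurd (smul_left_cancel h (h2.trans (hHu h hh).symm)) hxu
    · exact h2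
  have hdu : Dist4 c d u (x • u) := by
    refine ⟨h34, huc.symm, ?_, hud.symm, ?_, hxu.symm⟩
    · intro h; exact hud (by rw [← hxx u, ← h, hxc])
    · intro h; exact huc (by rw [← hxx u, ← h, hxd])
  obtain ⟨k', hk', k'c, k'd, k'u, k'v⟩ := conj_of_two_cycles hyp x (x * y) hx hz c d u (x • u)
    hdu hxc rfl a b c d hd0 za zc
  have hHx : ∀ h ∈ stab4 G a b c d, h * x = x * h := by
    intro h hh
    have hh' := mem_stab4.mp hh
    have hinv : ∀ r s : α, k' • r = s → k'⁻¹ • s = r :=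
      fun r s h => by rw [← h, inv_smul_smul]
    have hmem : k' * h * k'⁻¹ ∈ stab4 G a b c d := by
      rw [mem_stab4]
      refine ⟨?_, ?_, ?_, ?_⟩
      · rw [mul_smul, mul_smul, hinv c a k'c, hh'.2.2.1, k'c]
      · rw [mul_smul, mul_smul, hinv d b k'd, hh'.2.2.2, k'd]
      · rw [mul_smul, mul_smul, hinv u c k'u, hHu h hh, k'u]
      · rw [mul_smul, mul_smul, hinv (x • u) d k'v, hHv h hh, k'v]
    have h1 := hHz _ hmem
    rw [hk'] at h1
    calc h * x = k'⁻¹ * ((k' * h * k'⁻¹) * (k' * x * k'⁻¹)) * k' := by group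
      _ = k'⁻¹ * ((k' * x * k'⁻¹) * (k' * h * k'⁻¹)) * k' := by rw [h1]
      _ = x * h := by group
  have hAll := lemmaA_B hyp hfaith x a b c d e hd0 hx hxa hxb hxc hxe hfx hfixe u hu
    (fun ε hε _ => hHu ε hε)
  intro h hh
  exact hAll h hh (hHx h hh)

theorem three_points {a b e r s t : α} (hr : r = a ∨ r = b ∨ r = e)
    (hs : s = a ∨ s = b ∨ s = e) (ht : t = a ∨ t = b ∨ t = e) (hrs : r ≠ s) (hrt : r ≠ t)
    (hst : s ≠ t) (q : α) (hq : q = a ∨ q = b ∨ q = e) : q = r ∨ q = s ∨ q = t := by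
  rcases hr with h | h | h <;> rcases hs with h' | h' | h' <;> rcases ht with h'' | h'' | h'' <;>
    rcases hq with h3 | h3 | h3 <;> simp_all

/-- elements commuting with `x` and fixing `c`, `d`, `u` -/
def stabX (x : G) (c d u : α) : Subgroup G :=
  Subgroup.centralizer ({x} : Set G) ⊓ stabilizer G c ⊓ stabilizer G d ⊓ stabilizer G u

theorem mem_stabX {x : G} {c d u : α} {m : G} :
    m ∈ stabX x c d u ↔ m * x = x * m ∧ m • c = c ∧ m • d = d ∧ m • u = u := by
  simp only [stabX, Subgroup.mem_inf, mem_stabilizer_iff, and_assoc, Subgroup.mem_centralizer_iff,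
    Set.mem_singleton_iff, forall_eq]
  constructor
  · rintro ⟨h1, h2⟩; exact ⟨h1.symm, h2⟩
  · rintro ⟨h1, h2⟩; exact ⟨h1.symm, h2⟩

/-- **Case B, sub-case (II)**: if the 4-point stabilizer moves the third fixed point of `x`,
it is transitive on the remaining points (so the group is 5-transitive). -/
theorem caseB_trans [Finite G] (hyp : Hyp G α)
    (x : G) (a b c d e : α) (hd : Dist4 a b c d)
    (hx : x * x = 1) (hxa : x • a = a) (hxb : x • b = b) (hxc : x • c = d) (hxd : x • d = c)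
    (hxe : x • e = e) (hea : e ≠ a) (heb : e ≠ b)
    (hmove : ∃ h ∈ stab4 G a b c d, h • e ≠ e) :
    ∀ u v : α, u ≠ a → u ≠ b → u ≠ c → u ≠ d → v ≠ a → v ≠ b → v ≠ c → v ≠ d →
      ∃ g : G, g • a = a ∧ g • b = b ∧ g • c = c ∧ g • d = d ∧ g • u = v := by
  have hd0 := hd
  obtain ⟨hec, hed, hfx, y, hy, hyx, ya, yb, yc, yd, ye, hfy⟩ :=
    caseB_setup hyp x a b c d e hd hx hxa hxb hxc hxd hxe hea heb
  obtain ⟨h12, h13, h14, h23, h24, h34⟩ := hd
  have hxx : ∀ r : α, x • x • r = r := fun r => by rw [← mul_smul, hx, one_smul]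
  have hxinv : x⁻¹ = x := inv_eq_of_mul_eq_one_left hx
  have hxy : x * y = y * x := hyx.symm
  have hz : (x * y) * (x * y) = 1 := by
    have e1 : (x * y) * (x * y) = x * (y * x) * y := by group
    rw [e1, hyx]
    have e2 : x * (x * y) * y = (x * x) * (y * y) := by group
    rw [e2, hx, hy, one_mul]
  have za : (x * y) • a = b := by rw [mul_smul, ya, hxb]
  have zc : (x * y) • c = d := by rw [mul_smul, yc, hxc]
  have ze : (x * y) • e = e := by rw [mul_smul, ye, hxe]
  have hxN := conj_mem_stab4 (G := G) a b c d x hx (by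
    rintro q (h | h | h | h) <;> rw [h] <;> simp [hxa, hxb, hxc, hxd])
  have hyN := conj_mem_stab4 (G := G) a b c d y hy (by
    rintro q (h | h | h | h) <;> rw [h] <;> simp [ya, yb, yc, yd])
  -- Step 1: an element of the 4-point stabilizer commuting with `x * y` and moving `e`
  obtain ⟨c₀, hc₀, hc₀z, hc₀e⟩ :
      ∃ c₀ ∈ stab4 G a b c d, c₀ * (x * y) = (x * y) * c₀ ∧ c₀ • e ≠ e := by
    by_contra hcon
    push Not at hcon
    have hle : stab4 G a b c d ≤ stabilizer G e := by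
      apply gen_le (stab4 G a b c d) (odd_card_stab4 hyp a b c d hd0) x y hx hy hxy hxN hyN
      · intro ε hε hc
        have hε' := mem_stab4.mp hε
        rw [mem_stabilizer_iff]
        have h1 : x • (ε • e) = ε • e := by rw [← mul_smul, ← hc, mul_smul, hxe]
        rcases hfx _ h1 with h | h | h
        · exact absurd (smul_left_cancel ε (h.trans hε'.1.symm)) hea
        · exact absurd (smul_left_cancel ε (h.trans hε'.2.1.symm)) heb
        · exact h
      · intro ε hε hc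
        have hε' := mem_stab4.mp hε
        rw [mem_stabilizer_iff]
        have h1 : y • (ε • e) = ε • e := by rw [← mul_smul, ← hc, mul_smul, ye]
        rcases hfy _ h1 with h | h | h
        · exact absurd (smul_left_cancel ε (h.trans hε'.2.2.1.symm)) hec
        · exact absurd (smul_left_cancel ε (h.trans hε'.2.2.2.symm)) hed
        · exact h
      · intro ε hε hc
        rw [mem_stabilizer_iff]
        exact hcon ε hε hc
    obtain ⟨h₁, hh₁, hh₁e⟩ := hmove
    exact hh₁e (mem_stabilizer_iff.mp (hle hh₁))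
  have hc₀' := mem_stab4.mp hc₀
  obtain ⟨u₀, hu₀def⟩ : ∃ u₀ : α, u₀ = c₀ • e := ⟨_, rfl⟩
  have hu₀e : u₀ ≠ e := by rw [hu₀def]; exact hc₀e
  have hu₀a : u₀ ≠ a := fun h =>
    hea (smul_left_cancel c₀ ((hu₀def.symm.trans h).trans hc₀'.1.symm))
  have hu₀b : u₀ ≠ b := fun h =>
    heb (smul_left_cancel c₀ ((hu₀def.symm.trans h).trans hc₀'.2.1.symm))
  have hu₀c : u₀ ≠ c := fun h =>
    hec (smul_left_cancel c₀ ((hu₀def.symm.trans h).trans hc₀'.2.2.1.symm))
  have hu₀d : u₀ ≠ d := fun h =>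
    hed (smul_left_cancel c₀ ((hu₀def.symm.trans h).trans hc₀'.2.2.2.symm))
  have hxu₀ : x • u₀ ≠ u₀ := fun h => by
    rcases hfx u₀ h with h | h | h
    · exact hu₀a h
    · exact hu₀b h
    · exact hu₀e h
  have hdu : Dist4 c d u₀ (x • u₀) := by
    refine ⟨h34, hu₀c.symm, ?_, hu₀d.symm, ?_, hxu₀.symm⟩
    · intro h; exact hu₀d (by rw [← hxx u₀, ← h, hxc])
    · intro h; exact hu₀c (by rw [← hxx u₀, ← h, hxd])
  obtain ⟨k, hk, kc, kd, ku, kv⟩ := conj_of_two_cycles hyp x (x * y) hx hz c d u₀ (x • u₀)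
    hdu hxc rfl a b c d hd0 za zc
  have hkinv : ∀ r s : α, k • r = s → k⁻¹ • s = r := fun r s h => by rw [← h, inv_smul_smul]
  -- Step 2: a 3-cycle on the fixed points of `x`
  obtain ⟨c', hc'def⟩ : ∃ c' : G, c' = k⁻¹ * c₀ * k := ⟨_, rfl⟩
  have hc'x : c' * x = x * c' := by
    have h1 : c₀ * (k * x * k⁻¹) = (k * x * k⁻¹) * c₀ := by rw [← hk]; exact hc₀z
    calc c' * x = k⁻¹ * (c₀ * (k * x * k⁻¹)) * k := by rw [hc'def]; group
      _ = k⁻¹ * ((k * x * k⁻¹) * c₀) * k := by rw [h1]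
      _ = x * c' := by rw [hc'def]; group
  have hc'c : c' • c = c := by
    rw [hc'def, mul_smul, mul_smul, kc, hc₀'.1, hkinv c a kc]
  have hc'd : c' • d = d := by
    rw [hc'def, mul_smul, mul_smul, kd, hc₀'.2.1, hkinv d b kd]
  have hc'u : c' • u₀ = u₀ := by
    rw [hc'def, mul_smul, mul_smul, ku, hc₀'.2.2.1, hkinv u₀ c ku]
  have hc'v : c' • (x • u₀) = x • u₀ := by
    rw [hc'def, mul_smul, mul_smul, kv, hc₀'.2.2.2, hkinv (x • u₀) d kv]
  have hc'odd : Odd (orderOf c') := hyp.odd c' c d u₀ (x • u₀) hdu hc'c hc'd hc'u hc'v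
  obtain ⟨r, hrdef⟩ : ∃ r : α, r = k⁻¹ • e := ⟨_, rfl⟩
  have hxr : x • r = r := by
    have h1 : (k * x * k⁻¹) • e = e := by rw [← hk]; exact ze
    rw [mul_smul, mul_smul] at h1
    rw [hrdef, eq_inv_smul_iff]
    exact h1
  have hc'r : c' • r ≠ r := by
    intro h
    rw [hc'def, hrdef, mul_smul, mul_smul, smul_inv_smul, ← hu₀def] at h
    exact hu₀e (smul_left_cancel _ h)
  have hfixc' : ∀ q : α, x • q = q → x • (c' • q) = c' • q := by
    intro q hq
    rw [← mul_smul, ← hc'x, mul_smul, hq]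
  have hr3 := hfx r hxr
  have hs3 := hfx _ (hfixc' r hxr)
  have ht3 := hfx _ (hfixc' _ (hfixc' r hxr))
  have hrt : r ≠ c' • c' • r := fun h => hc'r (smul_eq_of_sq_smul c' r hc'odd h.symm)
  have hst : c' • r ≠ c' • c' • r := fun h => hc'r (smul_left_cancel c' h).symm
  have hc'S : c' ∈ stabX x c d u₀ := mem_stabX.mpr ⟨hc'x, hc'c, hc'd, hc'u⟩
  have hSr : ∀ q : α, (q = a ∨ q = b ∨ q = e) → ∃ m ∈ stabX x c d u₀, m • r = q := by
    intro q hq
    rcases three_points hr3 hs3 ht3 hc'r.symm hrt hst q hq with h | h | h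
    · exact ⟨1, Subgroup.one_mem _, by rw [one_smul, h]⟩
    · exact ⟨c', hc'S, h.symm⟩
    · exact ⟨c' * c', Subgroup.mul_mem _ hc'S hc'S, by rw [mul_smul, h]⟩
  have hM : ∀ q : α, (q = a ∨ q = b ∨ q = e) → ∃ m ∈ stabX x c d u₀, m • a = q := by
    intro q hq
    obtain ⟨m₁, hm₁, hm₁r⟩ := hSr a (Or.inl rfl)
    obtain ⟨m₂, hm₂, hm₂r⟩ := hSr q hq
    exact ⟨m₂ * m₁⁻¹, Subgroup.mul_mem _ hm₂ (Subgroup.inv_mem _ hm₁),
      by rw [mul_smul, ← hm₁r, inv_smul_smul, hm₂r]⟩
  -- Step 3: normalised maps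
  have hnorm : ∀ p w : α, x • p ≠ p → p ≠ c → p ≠ d → x • w ≠ w → w ≠ c → w ≠ d →
      (∀ m ∈ stabX x c d u₀, m • w = w) →
      ∃ g : G, g * x = x * g ∧ g • a = a ∧ g • c = c ∧ g • d = d ∧ g • w = p ∧
        (g • b = b ∨ g • b = e) := by
    intro p w hxp hpc hpd hxw hwc hwd hSw
    obtain ⟨g₁, hg₁x, hg₁c, hg₁d, hg₁w⟩ := exists_comm_map hyp x hx c d h34 hxc w p hxw hxp
      hwc hwd hpc hpd
    have c1 : Commute g₁⁻¹ x := (show Commute g₁ x from hg₁x).inv_left
    have h1 : x • (g₁⁻¹ • a) = g₁⁻¹ • a := by rw [← mul_smul, ← c1.eq, mul_smul, hxa]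
    obtain ⟨m, hm, hma⟩ := hM _ (hfx _ h1)
    have hm' := mem_stabX.mp hm
    have hgx : (g₁ * m) * x = x * (g₁ * m) := by
      rw [mul_assoc, hm'.1, ← mul_assoc, hg₁x, mul_assoc]
    have hga : (g₁ * m) • a = a := by rw [mul_smul, hma, smul_inv_smul]
    have hgb : x • ((g₁ * m) • b) = (g₁ * m) • b := by rw [← mul_smul, ← hgx, mul_smul, hxb]
    refine ⟨g₁ * m, hgx, hga, ?_, ?_, ?_, ?_⟩
    · rw [mul_smul, hm'.2.1, hg₁c]
    · rw [mul_smul, hm'.2.2.1, hg₁d]
    · rw [mul_smul, hSw m hm, hg₁w]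
    · rcases hfx _ hgb with h | h | h
      · exact absurd (smul_left_cancel _ (h.trans hga.symm)) h12.symm
      · exact Or.inl h
      · exact Or.inr h
  have hSv : ∀ m ∈ stabX x c d u₀, m • (x • u₀) = x • u₀ := by
    intro m hm
    have hm' := mem_stabX.mp hm
    rw [← mul_smul, hm'.1, mul_smul, hm'.2.2.2]
  have hxv : x • (x • u₀) ≠ x • u₀ := by rw [hxx]; exact hxu₀.symm
  have hvc : x • u₀ ≠ c := hdu.2.2.1.symm
  have hvd : x • u₀ ≠ d := hdu.2.2.2.2.1.symm
  have hc₀v : (x * c₀ * x) • e = x • u₀ := by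
    rw [mul_smul, mul_smul, hxe, ← hu₀def]
  have hc₀vmem : x * c₀ * x ∈ stab4 G a b c d := by
    have h1 := hxN c₀ hc₀
    rwa [hxinv] at h1
  -- Step 4: every point outside `{a, b, c, d}` is in the orbit of `e`
  have horb : ∀ p : α, p ≠ a → p ≠ b → p ≠ c → p ≠ d →
      ∃ h : G, h • a = a ∧ h • b = b ∧ h • c = c ∧ h • d = d ∧ h • e = p := by
    intro p hpa hpb hpc hpd
    by_cases hpe : p = e
    · exact ⟨1, one_smul _ _, one_smul _ _, one_smul _ _, one_smul _ _, by rw [one_smul, hpe]⟩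
    have hxp : x • p ≠ p := fun h => by
      rcases hfx p h with h | h | h
      · exact hpa h
      · exact hpb h
      · exact hpe h
    obtain ⟨g, hgx, hga, hgc, hgd, hgw, hgb⟩ := hnorm p u₀ hxp hpc hpd hxu₀ hu₀c hu₀d
      (fun m hm => (mem_stabX.mp hm).2.2.2)
    obtain ⟨g', hg'x, hg'a, hg'c, hg'd, hg'w, hg'b⟩ := hnorm p (x • u₀) hxp hpc hpd hxv hvc hvd hSv
    rcases hgb with hgb | hgb
    · refine ⟨g * c₀, ?_, ?_, ?_, ?_, ?_⟩
      · rw [mul_smul, hc₀'.1, hga]
      · rw [mul_smul, hc₀'.2.1, hgb]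
      · rw [mul_smul, hc₀'.2.2.1, hgc]
      · rw [mul_smul, hc₀'.2.2.2, hgd]
      · rw [mul_smul, ← hu₀def, hgw]
    rcases hg'b with hg'b | hg'b
    · have hm := mem_stab4.mp hc₀vmem
      refine ⟨g' * (x * c₀ * x), ?_, ?_, ?_, ?_, ?_⟩
      · rw [mul_smul, hm.1, hg'a]
      · rw [mul_smul, hm.2.1, hg'b]
      · rw [mul_smul, hm.2.2.1, hg'c]
      · rw [mul_smul, hm.2.2.2, hg'd]
      · rw [mul_smul, hc₀v, hg'w]
    · exfalso
      have hinv : ∀ r s : α, g' • r = s → g'⁻¹ • s = r :=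
        fun r s h => by rw [← h, inv_smul_smul]
      have e0a : (g'⁻¹ * g) • a = a := by rw [mul_smul, hga, hinv a a hg'a]
      have e0b : (g'⁻¹ * g) • b = b := by rw [mul_smul, hgb, hinv b e hg'b]
      have e0c : (g'⁻¹ * g) • c = c := by rw [mul_smul, hgc, hinv c c hg'c]
      have e0d : (g'⁻¹ * g) • d = d := by rw [mul_smul, hgd, hinv d d hg'd]
      have e0u : (g'⁻¹ * g) • u₀ = x • u₀ := by rw [mul_smul, hgw, hinv (x • u₀) p hg'w]
      have hodd := hyp.odd (g'⁻¹ * g) a b c d hd0 e0a e0b e0c e0d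
      have hcomm : (g'⁻¹ * g) * x = x * (g'⁻¹ * g) := by
        have c1 : Commute g' x := hg'x
        have c2 : Commute g x := hgx
        exact (c1.inv_left.mul_left c2).eq
      exact hxu₀ (no_swap x (g'⁻¹ * g) hx hcomm hodd u₀ e0u)
  intro u v hua hub huc hud hva hvb hvc' hvd'
  obtain ⟨h₁, h1a, h1b, h1c, h1d, h1e⟩ := horb u hua hub huc hud
  obtain ⟨h₂, h2a, h2b, h2c, h2d, h2e⟩ := horb v hva hvb hvc' hvd'
  have hinv : ∀ r s : α, h₁ • r = s → h₁⁻¹ • s = r := fun r s h => by rw [← h, inv_smul_smul]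
  refine ⟨h₂ * h₁⁻¹, ?_, ?_, ?_, ?_, ?_⟩
  · rw [mul_smul, hinv a a h1a, h2a]
  · rw [mul_smul, hinv b b h1b, h2b]
  · rw [mul_smul, hinv c c h1c, h2c]
  · rw [mul_smul, hinv d d h1d, h2d]
  · rw [mul_smul, hinv e u h1e, h2e]

end Cfsg.Agent.Lib.Helper21.Hall
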