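import Mathlib
import Cfsg.Agent.Lib.Helper21.HallA
import Cfsg.Agent.Lib.Helper21.HallB
import Cfsg.Agent.Lib.Helper27.HallFiveT

set_option autoImplicit false

namespace Cfsg.Agent.Lib.Helper21.Hall

open MulAction

/-- **M. Hall's theorem, core**: a 4-transitive permutation group whose 4-point stabilizer has
odd order has degree at most 7 or a trivial 4-point stabilizer. -/
theorem core {α : Type*} [Fintype α] [DecidableEq α] (G : Subgroup (Equiv.Perm α))
    (hG : IsMultiplyPretransitive G α 4) (x : Fin 4 ↪ α)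
    (hodd : Odd (Nat.card (stabilizer G x))) :
    Fintype.card α ≤ 7 ∨ Nat.card (stabilizer G x) = 1 := by
  have emb : ∀ a b c d : α, Dist4 a b c d →
      ∃ f : Fin 4 ↪ α, f 0 = a ∧ f 1 = b ∧ f 2 = c ∧ f 3 = d := by
    intro a b c d hd
    obtain ⟨h12, h13, h14, h23, h24, h34⟩ := hd
    refine ⟨⟨![a, b, c, d], ?_⟩, rfl, rfl, rfl, rfl⟩
    intro i j hij
    fin_cases i <;> fin_cases j <;> simp_all
  have hpt : ∀ (g : G) (f f' : Fin 4 ↪ α), g • f = f' → ∀ i, g • f i = f' i := by
    intro g f f' h i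
    rw [← h, Function.Embedding.smul_apply]
  have hyp : Hyp G α := by
    constructor
    · intro a b c d a' b' c' d' hd hd'
      obtain ⟨f, f0, f1, f2, f3⟩ := emb a b c d hd
      obtain ⟨f', f0', f1', f2', f3'⟩ := emb a' b' c' d' hd'
      obtain ⟨g, hg⟩ := hG.exists_smul_eq f f'
      refine ⟨g, ?_, ?_, ?_, ?_⟩
      · rw [← f0, ← f0']; exact hpt g f f' hg 0
      · rw [← f1, ← f1']; exact hpt g f f' hg 1
      · rw [← f2, ← f2']; exact hpt g f f' hg 2
      · rw [← f3, ← f3']; exact hpt g f f' hg 3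
    · intro g a b c d hd ga gb gc gd
      obtain ⟨f, f0, f1, f2, f3⟩ := emb a b c d hd
      have hgf : g • f = f := by
        ext i
        rw [Function.Embedding.smul_apply]
        fin_cases i
        · show g • f 0 = f 0
          rw [f0]; exact ga
        · show g • f 1 = f 1
          rw [f1]; exact gb
        · show g • f 2 = f 2
          rw [f2]; exact gc
        · show g • f 3 = f 3
          rw [f3]; exact gd
      obtain ⟨k, hk⟩ := hG.exists_smul_eq f x
      have hmem : k * g * k⁻¹ ∈ stabilizer G x := by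
        rw [mem_stabilizer_iff]
        apply Function.Embedding.ext
        intro i
        have h1 : k • f i = x i := hpt k f x hk i
        have h2 : g • f i = f i := hpt g f f hgf i
        show (k * g * k⁻¹) • x i = x i
        rw [mul_smul, mul_smul, ← h1, inv_smul_smul, h2]
      have h1 : orderOf (k * g * k⁻¹) ∣ Nat.card (stabilizer G x) :=
        Subgroup.orderOf_dvd_natCard _ hmem
      have h2 : orderOf (k * g * k⁻¹) = orderOf g := by
        have h3 := MulEquiv.orderOf_eq (MulAut.conj k) g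
        simpa using h3
      rw [← h2]
      exact Odd.of_dvd_nat hodd h1
  have hfaith : ∀ g : G, (∀ p : α, g • p = p) → g = 1 := by
    intro g h
    apply Subtype.ext
    apply Equiv.ext
    intro p
    exact h p
  have hinj := x.injective
  have hd : Dist4 (x 0) (x 1) (x 2) (x 3) :=
    ⟨hinj.ne (by decide), hinj.ne (by decide), hinj.ne (by decide), hinj.ne (by decide),
      hinj.ne (by decide), hinj.ne (by decide)⟩
  obtain ⟨x₀, hx, hxa, hxb, hxc, hxd⟩ := exists_x hyp (x 0) (x 1) (x 2) (x 3) hd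
  by_cases hex : ∃ e : α, e ≠ x 0 ∧ e ≠ x 1 ∧ x₀ • e = e
  swap
  · left
    push Not at hex
    have h6 : Nat.card α ≤ 6 := caseA hyp x₀ (x 0) (x 1) (x 2) (x 3) hd hx hxa hxb hxc hxd (by
      intro p hp
      by_contra hcon
      push Not at hcon
      exact hex p hcon.1 hcon.2 hp)
    rw [Nat.card_eq_fintype_card] at h6
    omega
  obtain ⟨e, hea, heb, hxe⟩ := hex
  by_cases hmove : ∃ h ∈ stab4 G (x 0) (x 1) (x 2) (x 3), h • e ≠ e
  · left
    obtain ⟨-, -, hfx, -⟩ := caseB_setup hyp x₀ (x 0) (x 1) (x 2) (x 3) e hd hx hxa hxb hxc hxd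
      hxe hea heb
    have h5 := caseB_trans hyp x₀ (x 0) (x 1) (x 2) (x 3) e hd hx hxa hxb hxc hxd hxe hea heb
      hmove
    have h7 : Nat.card α ≤ 7 := by
      apply Cfsg.Agent.Lib.Helper27.HallFiveT.fiveT hyp x₀ (x 0) (x 1) (x 2) (x 3) e hd hea heb
        hx hxa hxb hxc hxd hxe hfx h5
      intro G' _ _ α' _ _ hyp' x' a' b' c' d' hd' h1 h2 h3 h4 h5 h6
      exact caseA hyp' x' a' b' c' d' hd' h1 h2 h3 h4 h5 h6
    rw [Nat.card_eq_fintype_card] at h7
    exact h7
  · right
    push Not at hmove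
    have htriv := caseB_triv hyp hfaith x₀ (x 0) (x 1) (x 2) (x 3) e hd hx hxa hxb hxc hxd hxe
      hea heb hmove
    rw [Subgroup.card_eq_one, Subgroup.eq_bot_iff_forall]
    intro g hg
    rw [mem_stabilizer_iff] at hg
    apply htriv
    rw [mem_stab4]
    exact ⟨hpt g x x hg 0, hpt g x x hg 1, hpt g x x hg 2, hpt g x x hg 3⟩

end Cfsg.Agent.Lib.Helper21.Hall
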