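import Mathlib
import Cfsg.Prelude.Def_Solvable
import Cfsg.Prelude.Def_CaseTheorems
import Cfsg.Agent.Lib.Helper49.CharP
import Cfsg.Agent.Lib.Helper48.Generation

/-!
Helper21: the N-group four-group lemma (S1957).  A normal four-subgroup `U` of a Sylow
2-subgroup `P` of a group of characteristic 2 type (central in `P` when `Z(P)` is not cyclic)
lies in `O_2(C_G(u))` for each involution `u` of `U`; hence it centralizes every `U`-invariant
subgroup of odd order.
-/

set_option autoImplicit false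

namespace Cfsg.Agent.Lib.Helper21.NG

open Cfsg.Agent.Lib

variable {G : Type*} [Group G]

/-- Powers of an involution. -/
theorem zpow_involution {u : G} (hu : u * u = 1) (k : ℤ) : u ^ k = 1 ∨ u ^ k = u := by
  rcases Int.even_or_odd' k with ⟨m, rfl | rfl⟩
  · left
    rw [zpow_mul, zpow_two, hu, one_zpow]
  · right
    rw [zpow_add, zpow_mul, zpow_two, hu, one_zpow, one_mul, zpow_one]

theorem mem_zpowers_involution {u x : G} (hu : u * u = 1) (hx : x ∈ Subgroup.zpowers u) :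
    x = 1 ∨ x = u := by
  obtain ⟨k, rfl⟩ := Subgroup.mem_zpowers_iff.mp hx
  exact zpow_involution hu k

/-- The `p`-core is normal. -/
theorem pCore_normal (p : ℕ) (G : Type*) [Group G] : (Cfsg.pCore p G).Normal := by
  refine ⟨fun n hn g => ?_⟩
  have hle : Cfsg.pCore p G ≤ (Cfsg.pCore p G).comap (MulAut.conj g).toMonoidHom := by
    unfold Cfsg.pCore
    apply sSup_le
    rintro N ⟨hN, hNp⟩
    intro x hx
    rw [Subgroup.mem_comap]
    exact le_sSup (show N ∈ {N : Subgroup G | N.Normal ∧ IsPGroup p N} from ⟨hN, hNp⟩)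
      (by simpa using hN.conj_mem x hx g)
  simpa using hle hn

theorem le_normalizer_of_conj_mem {N Q : Subgroup G} (h : ∀ g ∈ N, ∀ x ∈ Q, g * x * g⁻¹ ∈ Q) :
    N ≤ Subgroup.normalizer (Q : Set G) := by
  intro g hg
  rw [Subgroup.mem_normalizer_iff]
  intro x
  constructor
  · exact h g hg x
  · intro hx
    have := h g⁻¹ (N.inv_mem hg) _ hx
    simpa [mul_assoc] using this

theorem commute_conj {g p y : G} (h : (g⁻¹ * p * g) * y = y * (g⁻¹ * p * g)) :
    p * (g * y * g⁻¹) = (g * y * g⁻¹) * p := by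
  have h1 : p * (g * y * g⁻¹) = g * ((g⁻¹ * p * g) * y) * g⁻¹ := by group
  rw [h1, h]; group

/-- Lemma A: in a group of characteristic 2, an element acting trivially on `O_2` modulo a
central subgroup of exponent 2 lies in `O_2`. -/
theorem mem_pCore_of_comm_mem [Finite G]
    (hG : Subgroup.centralizer (Cfsg.pCore 2 G : Set G) ≤ Cfsg.pCore 2 G)
    (Z : Subgroup G) (hZc : ∀ z ∈ Z, ∀ g : G, g * z = z * g) (hZ2 : ∀ z ∈ Z, z * z = 1)
    (v : G) (hv : ∀ q ∈ Cfsg.pCore 2 G, v * q * v⁻¹ * q⁻¹ ∈ Z) :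
    v ∈ Cfsg.pCore 2 G := by
  classical
  haveI : Fact (Nat.Prime 2) := ⟨Nat.prime_two⟩
  have hQn : (Cfsg.pCore 2 G).Normal := pCore_normal 2 G
  let D : Subgroup G :=
    { carrier := {c | ∀ q ∈ Cfsg.pCore 2 G, c * q * c⁻¹ * q⁻¹ ∈ Z}
      one_mem' := by
        intro q _
        have : (1 : G) * q * 1⁻¹ * q⁻¹ = 1 := by group
        rw [this]; exact Z.one_mem
      mul_mem' := by
        intro c d hc hd q hq
        have h1 := hd q hq
        have h2 := hc q hq
        have h3 : c * d * q * (c * d)⁻¹ * q⁻¹ =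
            (c * (d * q * d⁻¹ * q⁻¹) * c⁻¹) * (c * q * c⁻¹ * q⁻¹) := by group
        rw [h3]
        have h4 : c * (d * q * d⁻¹ * q⁻¹) * c⁻¹ = d * q * d⁻¹ * q⁻¹ := by
          rw [hZc _ h1 c, mul_inv_cancel_right]
        rw [h4]
        exact Z.mul_mem h1 h2
      inv_mem' := by
        intro c hc q hq
        have h1 := hc q hq
        have h3 : c⁻¹ * q * c⁻¹⁻¹ * q⁻¹ = c⁻¹ * ((c * q * c⁻¹ * q⁻¹)⁻¹ * c) := by group
        rw [h3, ← hZc _ (Z.inv_mem h1) c, inv_mul_cancel_left]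
        exact Z.inv_mem h1 }
  have hDn : D.Normal := by
    constructor
    intro c hc g q hq
    have hq' : g⁻¹ * q * g ∈ Cfsg.pCore 2 G := by
      have := hQn.conj_mem q hq g⁻¹
      simpa using this
    have h1 : c * (g⁻¹ * q * g) * c⁻¹ * (g⁻¹ * q * g)⁻¹ ∈ Z := hc _ hq'
    have h3 : g * c * g⁻¹ * q * (g * c * g⁻¹)⁻¹ * q⁻¹ =
        g * (c * (g⁻¹ * q * g) * c⁻¹ * (g⁻¹ * q * g)⁻¹) * g⁻¹ := by group
    rw [h3, hZc _ h1 g, mul_inv_cancel_right]
    exact h1
  have hDp : IsPGroup 2 D := by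
    apply Helper49.isPGroup_of_coprime_trivial
    intro x hx hxo
    apply Helper49.eq_one_of_centralizes_pCore hG hxo
    intro r hr
    have h1 : x * r * x⁻¹ * r⁻¹ ∈ Z := hx r hr
    have h2 : x * r * x⁻¹ = (x * r * x⁻¹ * r⁻¹) * r := by group
    have h3 : x * r * x⁻¹ * r⁻¹ = 1 :=
      Helper49.eq_one_of_stable h2 (hZc _ h1 x) hxo
        ⟨1, by rw [pow_one, pow_two]; exact hZ2 _ h1⟩
    have h4 : x * r * x⁻¹ = r := by rw [h2, h3, one_mul]
    show x * r = r * x
    calc x * r = x * r * x⁻¹ * x := by group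
      _ = r * x := by rw [h4]
  exact Helper49.le_pCore hDn hDp (show v ∈ D from hv)

/-- Lemma A inside a subgroup `N`. -/
theorem mem_pCoreOf_of_comm_mem [Finite G] (N : Subgroup G)
    (hN : Subgroup.centralizer (Cfsg.pCore 2 ↥N : Set ↥N) ≤ Cfsg.pCore 2 ↥N)
    (u : G) (huu : u * u = 1) (hNu : ∀ g ∈ N, g * u = u * g)
    (v : G) (hvN : v ∈ N)
    (hv : ∀ q ∈ (Cfsg.pCore 2 ↥N).map N.subtype, v * q * v⁻¹ * q⁻¹ ∈ Subgroup.zpowers u) :
    v ∈ (Cfsg.pCore 2 ↥N).map N.subtype := by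
  have h := mem_pCore_of_comm_mem (G := ↥N) hN ((Subgroup.zpowers u).subgroupOf N)
    (by
      intro z hz g
      rw [Subgroup.mem_subgroupOf] at hz
      apply Subtype.ext
      rw [Subgroup.coe_mul, Subgroup.coe_mul]
      rcases mem_zpowers_involution huu hz with h1 | h1
      · rw [h1, mul_one, one_mul]
      · rw [h1]; exact hNu _ g.2)
    (by
      intro z hz
      rw [Subgroup.mem_subgroupOf] at hz
      apply Subtype.ext
      rw [Subgroup.coe_mul, Subgroup.coe_one]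
      rcases mem_zpowers_involution huu hz with h1 | h1
      · rw [h1, mul_one]
      · rw [h1]; exact huu)
    ⟨v, hvN⟩
    (by
      intro q hq
      rw [Subgroup.mem_subgroupOf]
      have := hv (q : G) ⟨q, hq, rfl⟩
      simpa using this)
  exact ⟨⟨v, hvN⟩, h, rfl⟩

/-- Basic facts on a Klein four-subgroup. -/
theorem klein_facts (U : Subgroup G) (hU4 : IsKleinFour ↥U) :
    (∀ x ∈ U, x * x = 1) ∧ (∀ x ∈ U, ∀ y ∈ U, x * y = y * x) ∧
    (∀ a ∈ U, ∀ b ∈ U, a ≠ 1 → b ≠ 1 → a ≠ b → ∀ x ∈ U,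
      x = 1 ∨ x = a ∨ x = b ∨ x = a * b) := by
  refine ⟨?_, ?_, ?_⟩
  · intro x hx
    exact congrArg Subtype.val (IsKleinFour.mul_self (⟨x, hx⟩ : ↥U))
  · intro x hx y hy
    have := (IsKleinFour.isMulCommutative (G := ↥U)).is_comm.comm ⟨x, hx⟩ ⟨y, hy⟩
    exact congrArg Subtype.val this
  · intro a ha b hb ha1 hb1 hab x hx
    by_cases hx1 : x = 1
    · exact Or.inl hx1
    by_cases hxa : x = a
    · exact Or.inr (Or.inl hxa)
    by_cases hxb : x = b
    · exact Or.inr (Or.inr (Or.inl hxb))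
    right; right; right
    have := IsKleinFour.eq_mul_of_ne_all (G := ↥U) (x := ⟨a, ha⟩) (y := ⟨b, hb⟩) (z := ⟨x, hx⟩)
      (fun h => ha1 (congrArg Subtype.val h)) (fun h => hb1 (congrArg Subtype.val h))
      (fun h => hab (congrArg Subtype.val h)) (fun h => hx1 (congrArg Subtype.val h))
      (fun h => hxa (congrArg Subtype.val h)) (fun h => hxb (congrArg Subtype.val h))
    exact congrArg Subtype.val this

/-- Lemma B. -/
theorem comm_mem_zpowers_of_normalizes (U : Subgroup G)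
    (h4 : ∀ a ∈ U, ∀ b ∈ U, a ≠ 1 → b ≠ 1 → a ≠ b → ∀ x ∈ U,
      x = 1 ∨ x = a ∨ x = b ∨ x = a * b)
    (u : G) (hu : u ∈ U) (hu1 : u ≠ 1) (q : G) (hqu : q * u = u * q)
    (hqU : ∀ v ∈ U, q * v * q⁻¹ ∈ U) (v : G) (hv : v ∈ U) :
    v * q * v⁻¹ * q⁻¹ ∈ Subgroup.zpowers u := by
  have h0 : v * q * v⁻¹ * q⁻¹ = v * (q * v * q⁻¹)⁻¹ := by group
  rw [h0]
  by_cases hv1 : v = 1
  · rw [hv1]
    have : (1 : G) * (q * 1 * q⁻¹)⁻¹ = 1 := by group
    rw [this]; exact Subgroup.one_mem _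
  by_cases hvu : v = u
  · rw [hvu]
    have : q * u * q⁻¹ = u := by rw [hqu, mul_inv_cancel_right]
    rw [this, mul_inv_cancel]; exact Subgroup.one_mem _
  rcases h4 u hu v hv hu1 hv1 (Ne.symm hvu) _ (hqU v hv) with h | h | h | h
  · exfalso; apply hv1
    have : v = q⁻¹ * (q * v * q⁻¹) * q := by group
    rw [this, h]; group
  · exfalso; apply hvu
    have : v = q⁻¹ * (q * v * q⁻¹) * q := by group
    rw [this, h, mul_assoc, ← hqu, inv_mul_cancel_left]
  · rw [h, mul_inv_cancel]; exact Subgroup.one_mem _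
  · rw [h]
    have : v * (u * v)⁻¹ = u⁻¹ := by group
    rw [this]; exact Subgroup.inv_mem _ (Subgroup.mem_zpowers u)

/-- A normal four-subgroup of a Sylow 2-subgroup contains a central involution. -/
theorem exists_central_of_normal_four [Finite G] (P : Sylow 2 G) (U : Subgroup G)
    (hUn : (P : Subgroup G) ≤ Subgroup.normalizer (U : Set G)) (hc : Nat.card U = 4) :
    ∃ z ∈ U, z ≠ 1 ∧ ∀ x ∈ (P : Subgroup G), x * z = z * x := by
  classical
  haveI : Fact (Nat.Prime 2) := ⟨Nat.prime_two⟩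
  let φ : ↥(P : Subgroup G) →* MulAut ↥U :=
    (Helper48.normConj U).comp (Subgroup.inclusion hUn)
  letI : MulAction ↥(P : Subgroup G) ↥U := MulAction.compHom ↥U φ
  have hP : IsPGroup 2 ↥(P : Subgroup G) := P.isPGroup'
  have h1 : (1 : ↥U) ∈ MulAction.fixedPoints ↥(P : Subgroup G) ↥U := by
    intro g
    show φ g 1 = 1
    exact map_one _
  obtain ⟨b, hb, hb1⟩ := hP.exists_fixed_point_of_prime_dvd_card_of_fixed_point ↥U
    (by rw [hc]; norm_num) h1
  refine ⟨b, b.2, fun h => hb1 (Subtype.ext h.symm), fun x hx => ?_⟩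
  have h2 : φ ⟨x, hx⟩ b = b := hb ⟨x, hx⟩
  have h3 : x * b * x⁻¹ = b := congrArg Subtype.val h2
  calc x * b = x * b * x⁻¹ * x := by group
    _ = b * x := by rw [h3]

/-- A cyclic group has at most one involution. -/
theorem involution_unique_of_cyclic [Finite G] {H : Subgroup G} (hH : IsCyclic ↥H) {z w : G}
    (hz : z ∈ H) (hw : w ∈ H) (hz1 : z ≠ 1) (hzz : z * z = 1) (hww : w * w = 1) :
    w = 1 ∨ w = z := by
  classical
  by_contra hne
  push Not at hne
  letI : Fintype ↥H := Fintype.ofFinite _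
  have h1 := IsCyclic.card_pow_eq_one_le (α := ↥H) (n := 2) (by norm_num)
  have h2 : ({(1 : ↥H), ⟨z, hz⟩, ⟨w, hw⟩} : Finset ↥H) ⊆
      Finset.univ.filter (fun a : ↥H => a ^ 2 = 1) := by
    intro a ha
    simp only [Finset.mem_insert, Finset.mem_singleton] at ha
    rw [Finset.mem_filter]
    refine ⟨Finset.mem_univ _, ?_⟩
    rcases ha with rfl | rfl | rfl
    · simp
    · apply Subtype.ext; simp [pow_two, hzz]
    · apply Subtype.ext; simp [pow_two, hww]
  have h3 : ({(1 : ↥H), ⟨z, hz⟩, ⟨w, hw⟩} : Finset ↥H).card = 3 := by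
    rw [Finset.card_insert_of_notMem, Finset.card_insert_of_notMem, Finset.card_singleton]
    · simp only [Finset.mem_singleton, Subtype.mk.injEq]
      exact fun h => hne.2 h.symm
    · simp only [Finset.mem_insert, Finset.mem_singleton, not_or]
      refine ⟨fun h => hz1 ?_, fun h => hne.1 ?_⟩
      · exact (congrArg Subtype.val h).symm
      · exact (congrArg Subtype.val h).symm
  have h4 := Finset.card_le_card h2
  omega

theorem card_eq_card_mul_relIndex {H K : Subgroup G} (h : H ≤ K) :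
    Nat.card K = Nat.card H * H.relIndex K := by
  have := Subgroup.relIndex_mul_relIndex (⊥ : Subgroup G) H K bot_le h
  rw [Subgroup.relIndex_bot_left, Subgroup.relIndex_bot_left] at this
  exact this.symm

theorem conj_mem_of_relIndex_dvd_two {H K : Subgroup G} (hHK : H ≤ K) (h : H.relIndex K ∣ 2) :
    ∀ k ∈ K, ∀ x ∈ H, k * x * k⁻¹ ∈ H := by
  have h12 : H.relIndex K = 1 ∨ H.relIndex K = 2 := (Nat.dvd_prime Nat.prime_two).mp h
  rcases h12 with h1 | h2
  · rw [Subgroup.relIndex_eq_one] at h1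
    intro k hk x hx
    exact H.mul_mem (H.mul_mem (h1 hk) hx) (H.inv_mem (h1 hk))
  · have hn : (H.subgroupOf K).Normal := Subgroup.normal_of_index_eq_two h2
    intro k hk x hx
    have := hn.conj_mem ⟨x, hHK hx⟩ (by rw [Subgroup.mem_subgroupOf]; exact hx) ⟨k, hk⟩
    rw [Subgroup.mem_subgroupOf] at this
    simpa using this

theorem mem_normalizer_zpowers_of_commute {u g : G} (huu : u * u = 1) (hg : g * u = u * g) :
    g ∈ Subgroup.normalizer (Subgroup.zpowers u : Set G) := by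
  apply Subgroup.centralizer_le_normalizer
  rw [Subgroup.mem_centralizer_iff]
  intro h hh
  rcases mem_zpowers_involution huu (SetLike.mem_coe.mp hh) with h1 | h1
  · rw [h1, one_mul, mul_one]
  · rw [h1]; exact hg.symm

theorem commute_of_mem_normalizer_zpowers {u g : G} (huu : u * u = 1) (hu1 : u ≠ 1)
    (hg : g ∈ Subgroup.normalizer (Subgroup.zpowers u : Set G)) : g * u = u * g := by
  have h1 : g * u * g⁻¹ ∈ Subgroup.zpowers u :=
    (Subgroup.mem_normalizer_iff.mp hg u).mp (Subgroup.mem_zpowers u)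
  rcases mem_zpowers_involution huu h1 with h | h
  · exfalso; apply hu1
    have : u = g⁻¹ * (g * u * g⁻¹) * g := by group
    rw [this, h]; group
  · calc g * u = g * u * g⁻¹ * g := by group
      _ = u * g := by rw [h]

theorem conj_mem_pCoreOf (N : Subgroup G) (p : ℕ) {g q : G} (hg : g ∈ N)
    (hq : q ∈ (Cfsg.pCore p ↥N).map N.subtype) :
    g * q * g⁻¹ ∈ (Cfsg.pCore p ↥N).map N.subtype := by
  obtain ⟨y, hy, rfl⟩ := hq
  exact ⟨⟨g, hg⟩ * y * ⟨g, hg⟩⁻¹, (pCore_normal p ↥N).conj_mem y hy ⟨g, hg⟩, rfl⟩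

/-- Case 2: `Z(P)` has the unique involution `z`, and `u ∈ U` is not central in `P`.  Then every
2-subgroup `T` of `C_G(u)` containing `C_P(u)` normalizes `U`. -/
theorem four_normalized [Finite G] (P : Sylow 2 G) (U : Subgroup G)
    (hUP : U ≤ (P : Subgroup G))
    (hUn : ∀ x ∈ (P : Subgroup G), ∀ v ∈ U, x * v * x⁻¹ ∈ U)
    (hsq : ∀ x ∈ U, x * x = 1) (hcomm : ∀ x ∈ U, ∀ y ∈ U, x * y = y * x)
    (h4 : ∀ a ∈ U, ∀ b ∈ U, a ≠ 1 → b ≠ 1 → a ≠ b → ∀ x ∈ U,
      x = 1 ∨ x = a ∨ x = b ∨ x = a * b)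
    (u z : G) (hu : u ∈ U) (hz : z ∈ U) (hu1 : u ≠ 1) (hz1 : z ≠ 1)
    (hzc : ∀ x ∈ (P : Subgroup G), x * z = z * x)
    (hZ : ∀ w ∈ (P : Subgroup G), (∀ x ∈ (P : Subgroup G), x * w = w * x) → w * w = 1 →
      w = 1 ∨ w = z)
    (x₀ : G) (hx₀ : x₀ ∈ (P : Subgroup G)) (hx₀u : x₀ * u ≠ u * x₀)
    (T : Subgroup G) (hT : IsPGroup 2 T)
    (hPT : (P : Subgroup G) ⊓ Subgroup.centralizer {u} ≤ T)
    (hTu : ∀ r ∈ T, r * u = u * r) :
    ∀ r ∈ T, ∀ v ∈ U, r * v * r⁻¹ ∈ U := by
  classical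
  have huu := hsq u hu
  have hzz := hsq z hz
  have huz : u ≠ z := by
    intro h; apply hx₀u; rw [h]; exact hzc x₀ hx₀
  have hzu : z * u = u * z := hcomm z hz u hu
  have hU : ∀ v ∈ U, v = 1 ∨ v = u ∨ v = z ∨ v = u * z := h4 u hu z hz hu1 hz1 huz
  set P₀ : Subgroup G := (P : Subgroup G) ⊓ Subgroup.centralizer {u} with hP₀def
  have hP₀ : ∀ x, x ∈ P₀ ↔ x ∈ (P : Subgroup G) ∧ x * u = u * x := by
    intro x
    rw [hP₀def, Subgroup.mem_inf, Subgroup.mem_centralizer_iff]
    constructor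
    · rintro ⟨h1, h2⟩; exact ⟨h1, (h2 u rfl).symm⟩
    · rintro ⟨h1, h2⟩
      refine ⟨h1, ?_⟩
      intro h hh
      rw [Set.mem_singleton_iff] at hh
      rw [hh]; exact h2.symm
  have hP₀P : P₀ ≤ (P : Subgroup G) := inf_le_left
  -- conjugates of u
  have hconj : ∀ x ∈ (P : Subgroup G), x * u = u * x ∨ x * u = u * z * x := by
    intro x hx
    rcases hU _ (hUn x hx u hu) with h | h | h | h
    · exfalso; apply hu1
      have : u = x⁻¹ * (x * u * x⁻¹) * x := by group
      rw [this, h]; group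
    · left
      calc x * u = x * u * x⁻¹ * x := by group
        _ = u * x := by rw [h]
    · exfalso; apply huz
      have : u = x⁻¹ * (x * u * x⁻¹) * x := by group
      rw [this, h, mul_assoc, ← hzc x hx, inv_mul_cancel_left]
    · right
      calc x * u = x * u * x⁻¹ * x := by group
        _ = u * z * x := by rw [h]
  have hx₀' : x₀ * u = u * z * x₀ := (hconj x₀ hx₀).resolve_left hx₀u
  have hx₀P₀ : x₀ ∉ P₀ := fun h => hx₀u ((hP₀ x₀).mp h).2
  -- product of two elements outside P₀ is in P₀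
  have hmul : ∀ a ∈ (P : Subgroup G), ∀ b ∈ (P : Subgroup G), a ∉ P₀ → b ∉ P₀ →
      a * b ∈ P₀ := by
    intro a ha b hb ha0 hb0
    rw [hP₀]
    refine ⟨Subgroup.mul_mem _ ha hb, ?_⟩
    have h1 : a * u = u * z * a :=
      (hconj a ha).resolve_left (fun h => ha0 ((hP₀ a).mpr ⟨ha, h⟩))
    have h2 : b * u = u * z * b :=
      (hconj b hb).resolve_left (fun h => hb0 ((hP₀ b).mpr ⟨hb, h⟩))
    calc a * b * u = a * (b * u) := by rw [mul_assoc]
      _ = a * (u * z * b) := by rw [h2]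
      _ = (a * u) * z * b := by group
      _ = u * z * a * z * b := by rw [h1]
      _ = u * z * (a * z) * b := by group
      _ = u * z * (z * a) * b := by rw [hzc a ha]
      _ = u * (z * z) * a * b := by group
      _ = u * (a * b) := by rw [hzz]; group
  have hcos : ∀ x ∈ (P : Subgroup G), x ∉ P₀ → x₀⁻¹ * x ∈ P₀ := by
    intro x hx hx0
    have hx₀inv : x₀⁻¹ ∉ P₀ := fun h => hx₀P₀ (by simpa using P₀.inv_mem h)
    exact hmul _ (Subgroup.inv_mem _ hx₀) x hx hx₀inv hx0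
  -- index two
  have hidx : P₀.relIndex (P : Subgroup G) = 2 := by
    rw [Subgroup.relIndex_eq_two_iff]
    refine ⟨x₀, hx₀, fun b hb => ?_⟩
    by_cases hb0 : b ∈ P₀
    · right
      refine ⟨hb0, fun h => hx₀P₀ ?_⟩
      have : x₀ = b⁻¹ * (b * x₀) := by group
      rw [this]; exact P₀.mul_mem (P₀.inv_mem hb0) h
    · left
      exact ⟨hmul b hb x₀ hx₀ hb0 hx₀P₀, hb0⟩
  have hcardP : Nat.card (P : Subgroup G) = Nat.card P₀ * 2 := by
    rw [card_eq_card_mul_relIndex hP₀P, hidx]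
  -- T
  have hcardT : Nat.card T ∣ Nat.card (P : Subgroup G) := by
    obtain ⟨S, hS⟩ := hT.exists_le_sylow
    have h1 : Nat.card (S : Subgroup G) = Nat.card (P : Subgroup G) := by
      rw [S.card_eq_multiplicity, P.card_eq_multiplicity]
    rw [← h1]; exact Subgroup.card_dvd_of_le hS
  have hTidx : P₀.relIndex T ∣ 2 := by
    rw [card_eq_card_mul_relIndex hPT, hcardP] at hcardT
    have hpos : 0 < Nat.card P₀ := Nat.card_pos
    exact (Nat.mul_dvd_mul_iff_left hpos).mp hcardT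
  have hTn : ∀ r ∈ T, ∀ x ∈ P₀, r * x * r⁻¹ ∈ P₀ := conj_mem_of_relIndex_dvd_two hPT hTidx
  have hPn : ∀ r ∈ (P : Subgroup G), ∀ x ∈ P₀, r * x * r⁻¹ ∈ P₀ :=
    conj_mem_of_relIndex_dvd_two hP₀P (by rw [hidx])
  have hzP₀ : z ∈ P₀ := (hP₀ z).mpr ⟨hUP hz, hzu⟩
  have huP₀ : u ∈ P₀ := (hP₀ u).mpr ⟨hUP hu, rfl⟩
  -- elements commuting with P₀ and x₀ are central in P
  have hcenP : ∀ w, (∀ p ∈ P₀, p * w = w * p) → x₀ * w = w * x₀ →
      ∀ x ∈ (P : Subgroup G), x * w = w * x := by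
    intro w hw0 hwx x hx
    by_cases hx0 : x ∈ P₀
    · exact hw0 x hx0
    · have h1 := hw0 _ (hcos x hx hx0)
      calc x * w = x₀ * ((x₀⁻¹ * x) * w) := by group
        _ = x₀ * (w * (x₀⁻¹ * x)) := by rw [h1]
        _ = (x₀ * w) * (x₀⁻¹ * x) := by group
        _ = (w * x₀) * (x₀⁻¹ * x) := by rw [hwx]
        _ = w * x := by group
  -- key claim: conjugates of z under T lie in U
  have hkey : ∀ r ∈ T, r * z * r⁻¹ ∈ U := by
    intro r hr
    have hy0 : r * z * r⁻¹ ∈ P₀ := hTn r hr z hzP₀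
    have hyc : ∀ p ∈ P₀, p * (r * z * r⁻¹) = (r * z * r⁻¹) * p := by
      intro p hp
      apply commute_conj
      have h1 : r⁻¹ * p * r ∈ P₀ := by
        have := hTn r⁻¹ (T.inv_mem hr) p hp
        simpa using this
      exact hzc _ (hP₀P h1)
    have hyy : (r * z * r⁻¹) * (r * z * r⁻¹) = 1 := by
      calc r * z * r⁻¹ * (r * z * r⁻¹) = r * (z * z) * r⁻¹ := by group
        _ = 1 := by rw [hzz]; group
    generalize r * z * r⁻¹ = y at hy0 hyc hyy ⊢
    have hy'0 : x₀ * y * x₀⁻¹ ∈ P₀ := hPn x₀ hx₀ y hy0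
    have hy'c : ∀ p ∈ P₀, p * (x₀ * y * x₀⁻¹) = (x₀ * y * x₀⁻¹) * p := by
      intro p hp
      apply commute_conj
      have h1 : x₀⁻¹ * p * x₀ ∈ P₀ := by
        have := hPn x₀⁻¹ (Subgroup.inv_mem _ hx₀) p hp
        simpa using this
      exact hyc _ h1
    have hy'y' : (x₀ * y * x₀⁻¹) * (x₀ * y * x₀⁻¹) = 1 := by
      calc x₀ * y * x₀⁻¹ * (x₀ * y * x₀⁻¹) = x₀ * (y * y) * x₀⁻¹ := by group
        _ = 1 := by rw [hyy]; group
    have hx₀sq : x₀ * x₀ ∈ P₀ := hmul x₀ hx₀ x₀ hx₀ hx₀P₀ hx₀P₀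
    have hx₀y' : x₀ * (x₀ * y * x₀⁻¹) = y * x₀ := by
      have h1 := hyc _ hx₀sq
      calc x₀ * (x₀ * y * x₀⁻¹) = (x₀ * x₀ * y) * x₀⁻¹ := by group
        _ = y * (x₀ * x₀) * x₀⁻¹ := by rw [h1]
        _ = y * x₀ := by group
    have hx₀y : x₀ * y = (x₀ * y * x₀⁻¹) * x₀ := by group
    generalize x₀ * y * x₀⁻¹ = y' at hy'0 hy'c hy'y' hx₀y' hx₀y
    have hyy' : y * y' = y' * y := (hyc y' hy'0).symm
    have hwP : y * y' ∈ (P : Subgroup G) := hP₀P (P₀.mul_mem hy0 hy'0)
    have hwc : ∀ x ∈ (P : Subgroup G), x * (y * y') = (y * y') * x := by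
      apply hcenP
      · intro p hp
        rw [← mul_assoc, hyc p hp, mul_assoc, hy'c p hp, ← mul_assoc]
      · rw [← mul_assoc, hx₀y, mul_assoc, hx₀y', ← mul_assoc, hyy']
    have hww : (y * y') * (y * y') = 1 := by
      calc y * y' * (y * y') = y * (y' * y) * y' := by group
        _ = y * (y * y') * y' := by rw [hyy']
        _ = (y * y) * (y' * y') := by group
        _ = 1 := by rw [hyy, hy'y', one_mul]
    have hy'eq : y' = y * (y * y') := by rw [← mul_assoc, hyy, one_mul]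
    rcases hZ _ hwP hwc hww with h | h
    · -- y' = y
      have h1 : y' = y := by rw [hy'eq, h, mul_one]
      have h2 : x₀ * y = y * x₀ := by rw [hx₀y, h1]
      rcases hZ y (hP₀P hy0) (hcenP y hyc h2) hyy with h3 | h3
      · rw [h3]; exact U.one_mem
      · rw [h3]; exact hz
    · -- y' = y * z
      have h1 : y' = y * z := by rw [hy'eq, h]
      have hvP : y * u ∈ (P : Subgroup G) := hP₀P (P₀.mul_mem hy0 huP₀)
      have hyu : y * u = u * y := (hyc u huP₀).symm
      have hvc0 : ∀ p ∈ P₀, p * (y * u) = (y * u) * p := by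
        intro p hp
        have hpu : p * u = u * p := ((hP₀ p).mp hp).2
        rw [← mul_assoc, hyc p hp, mul_assoc, hpu, ← mul_assoc]
      have hvx : x₀ * (y * u) = (y * u) * x₀ := by
        calc x₀ * (y * u) = (x₀ * y) * u := by group
          _ = y' * x₀ * u := by rw [hx₀y]
          _ = y' * (x₀ * u) := by group
          _ = y * z * (u * z * x₀) := by rw [hx₀', h1]
          _ = y * (z * u) * z * x₀ := by group
          _ = y * (u * z) * z * x₀ := by rw [hzu]
          _ = y * u * (z * z) * x₀ := by group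
          _ = y * u * x₀ := by rw [hzz, mul_one]
      have hvv : (y * u) * (y * u) = 1 := by
        calc y * u * (y * u) = y * (u * y) * u := by group
          _ = y * (y * u) * u := by rw [hyu]
          _ = (y * y) * (u * u) := by group
          _ = 1 := by rw [hyy, huu, one_mul]
      have h5 : y = (y * u) * u⁻¹ := by group
      rcases hZ _ hvP (hcenP _ hvc0 hvx) hvv with h3 | h3
      · rw [h5, h3, one_mul]; exact U.inv_mem hu
      · rw [h5, h3]; exact U.mul_mem hz (U.inv_mem hu)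
  intro r hr v hv
  have hru : r * u * r⁻¹ = u := by rw [hTu r hr, mul_inv_cancel_right]
  rcases hU v hv with h | h | h | h
  · rw [h]
    have : r * 1 * r⁻¹ = 1 := by group
    rw [this]; exact U.one_mem
  · rw [h, hru]; exact hu
  · rw [h]; exact hkey r hr
  · rw [h]
    have : r * (u * z) * r⁻¹ = (r * u * r⁻¹) * (r * z * r⁻¹) := by group
    rw [this, hru]; exact U.mul_mem hu (hkey r hr)

/-- A normal four-subgroup `U` of a Sylow 2-subgroup `P` of a group of characteristic 2 type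
(central in `P` when `Z(P)` is not cyclic) lies in `O_2(C_G(u))` for each `1 ≠ u ∈ U`. -/
theorem klein_le_pCoreOf [Finite G] (h2 : Cfsg.IsCharacteristicTwoType G)
    (P : Sylow 2 G) (U : Subgroup G) (hUP : U ≤ (P : Subgroup G))
    (hUn : (P : Subgroup G) ≤ Subgroup.normalizer (U : Set G))
    (hU4 : IsKleinFour ↥U)
    (hUZ : ¬ IsCyclic ↥((P : Subgroup G) ⊓ Subgroup.centralizer ((P : Subgroup G) : Set G)) →
      U ≤ Subgroup.centralizer ((P : Subgroup G) : Set G))
    (u : G) (hu : u ∈ U) (hu1 : u ≠ 1) :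
    U ≤ (Cfsg.pCore 2 ↥(Subgroup.normalizer (Subgroup.zpowers u : Set G))).map
      (Subgroup.normalizer (Subgroup.zpowers u : Set G)).subtype := by
  classical
  haveI : Fact (Nat.Prime 2) := ⟨Nat.prime_two⟩
  obtain ⟨hsq, hcomm, h4⟩ := klein_facts U hU4
  have hUn' : ∀ x ∈ (P : Subgroup G), ∀ v ∈ U, x * v * x⁻¹ ∈ U :=
    fun x hx v hv => (Subgroup.mem_normalizer_iff.mp (hUn hx) v).mp hv
  have huu : u * u = 1 := hsq u hu
  have hZ2 : IsPGroup 2 (Subgroup.zpowers u) := by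
    intro x
    refine ⟨1, Subtype.ext ?_⟩
    rcases mem_zpowers_involution huu x.2 with h | h
    · simp [h]
    · simp [h, pow_two, huu]
  have hZne : Subgroup.zpowers u ≠ ⊥ := by
    intro h
    apply hu1
    have := Subgroup.mem_zpowers u
    rw [h, Subgroup.mem_bot] at this
    exact this
  have hchar := h2.2 _ hZ2 hZne
  unfold Cfsg.IsOfCharacteristicTwo at hchar
  have hNu : ∀ g ∈ Subgroup.normalizer (Subgroup.zpowers u : Set G), g * u = u * g :=
    fun g hg => commute_of_mem_normalizer_zpowers huu hu1 hg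
  have huN : ∀ g, g * u = u * g → g ∈ Subgroup.normalizer (Subgroup.zpowers u : Set G) :=
    fun g hg => mem_normalizer_zpowers_of_commute huu hg
  generalize Subgroup.normalizer (Subgroup.zpowers u : Set G) = N at hchar hNu huN ⊢
  have hQ2 : IsPGroup 2 ((Cfsg.pCore 2 ↥N).map N.subtype) :=
    (Helper49.pCore_isPGroup 2 ↥N).map N.subtype
  have hQN : (Cfsg.pCore 2 ↥N).map N.subtype ≤ N := by
    rintro _ ⟨y, -, rfl⟩; exact y.2
  have hNQ : ∀ g ∈ N, ∀ q ∈ (Cfsg.pCore 2 ↥N).map N.subtype,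
      g * q * g⁻¹ ∈ (Cfsg.pCore 2 ↥N).map N.subtype :=
    fun g hg q hq => conj_mem_pCoreOf N 2 hg hq
  generalize hQdef : (Cfsg.pCore 2 ↥N).map N.subtype = Q at hQ2 hQN hNQ
  -- key: Q normalizes U
  have key : ∀ q ∈ Q, ∀ v ∈ U, q * v * q⁻¹ ∈ U := by
    by_cases hcen : ∀ x ∈ (P : Subgroup G), x * u = u * x
    · have hPN : (P : Subgroup G) ≤ N := fun x hx => huN x (hcen x hx)
      have h1 : IsPGroup 2 (Q ⊔ (P : Subgroup G) : Subgroup G) :=
        hQ2.to_sup_of_normal_left' P.isPGroup' (hPN.trans (le_normalizer_of_conj_mem hNQ))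
      have h2' : Q ⊔ (P : Subgroup G) = P := P.is_maximal' h1 le_sup_right
      have hQP : Q ≤ (P : Subgroup G) := by rw [← h2']; exact le_sup_left
      intro q hq v hv
      exact hUn' q (hQP hq) v hv
    · push Not at hcen
      obtain ⟨x₀, hx₀, hx₀u⟩ := hcen
      have hcyc : IsCyclic
          ↥((P : Subgroup G) ⊓ Subgroup.centralizer ((P : Subgroup G) : Set G)) := by
        by_contra hnc
        have h1 := hUZ hnc hu
        rw [Subgroup.mem_centralizer_iff] at h1
        exact hx₀u (h1 x₀ hx₀)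
      obtain ⟨z, hz, hz1, hzc⟩ := exists_central_of_normal_four P U hUn hU4.card_four
      have hZ : ∀ w ∈ (P : Subgroup G), (∀ x ∈ (P : Subgroup G), x * w = w * x) →
          w * w = 1 → w = 1 ∨ w = z := by
        intro w hw hwc hww
        refine involution_unique_of_cyclic hcyc (z := z) (w := w) ?_ ?_ hz1 (hsq z hz) hww
        · exact Subgroup.mem_inf.mpr
            ⟨hUP hz, Subgroup.mem_centralizer_iff.mpr (fun x hx => hzc x hx)⟩
        · exact Subgroup.mem_inf.mpr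
            ⟨hw, Subgroup.mem_centralizer_iff.mpr (fun x hx => hwc x hx)⟩
      have hP₀N : (P : Subgroup G) ⊓ Subgroup.centralizer {u} ≤ N := by
        intro x hx
        apply huN
        have := Subgroup.mem_centralizer_iff.mp (Subgroup.mem_inf.mp hx).2 u rfl
        exact this.symm
      have hT2 : IsPGroup 2
          (Q ⊔ ((P : Subgroup G) ⊓ Subgroup.centralizer {u}) : Subgroup G) :=
        hQ2.to_sup_of_normal_left' (P.isPGroup'.to_le inf_le_left)
          (hP₀N.trans (le_normalizer_of_conj_mem hNQ))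
      have hTN : Q ⊔ ((P : Subgroup G) ⊓ Subgroup.centralizer {u}) ≤ N := sup_le hQN hP₀N
      have h3 := four_normalized P U hUP hUn' hsq hcomm h4 u z hu hz hu1 hz1 hzc hZ x₀ hx₀ hx₀u
        _ hT2 le_sup_right (fun r hr => hNu r (hTN hr))
      intro q hq v hv
      exact h3 q (Subgroup.mem_sup_left hq) v hv
  intro v hv
  rw [← hQdef]
  apply mem_pCoreOf_of_comm_mem N hchar u huu hNu v (huN v (hcomm v hv u hu))
  intro q hq
  rw [hQdef] at hq
  exact comm_mem_zpowers_of_normalizes U h4 u hu hu1 q (hNu q (hQN hq)) (key q hq) v hv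

/-- **S1957.**  In a finite group of characteristic 2 type, a normal four-subgroup `U` of a
Sylow 2-subgroup `P` (central in `P` if `Z(P)` is not cyclic) centralizes every subgroup of
odd order that it normalizes. -/
theorem four_group_centralizes [Finite G] (h2 : Cfsg.IsCharacteristicTwoType G)
    (P : Sylow 2 G) (U : Subgroup G) (hUP : U ≤ (P : Subgroup G))
    (hUn : (P : Subgroup G) ≤ Subgroup.normalizer (U : Set G))
    (hU4 : IsKleinFour ↥U)
    (hUZ : ¬ IsCyclic ↥((P : Subgroup G) ⊓ Subgroup.centralizer ((P : Subgroup G) : Set G)) →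
      U ≤ Subgroup.centralizer ((P : Subgroup G) : Set G))
    (K : Subgroup G) (hK : Odd (Nat.card K)) (hUK : U ≤ Subgroup.normalizer (K : Set G)) :
    U ≤ Subgroup.centralizer (K : Set G) := by
  classical
  haveI : Fact (Nat.Prime 2) := ⟨Nat.prime_two⟩
  obtain ⟨hsq, hcomm, h4⟩ := klein_facts U hU4
  rw [Subgroup.le_centralizer_iff]
  apply Helper48.coprime_generation_le (p := 2) K U hcomm
    (fun x hx => by rw [pow_two]; exact hsq x hx) IsKleinFour.not_isCyclic
    (fun h => by rw [Nat.odd_iff] at hK; omega) hUK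
  intro u hu hu1 x hx
  have hle := klein_le_pCoreOf h2 P U hUP hUn hU4 hUZ u hu hu1
  have huu : u * u = 1 := hsq u hu
  have hxK : x ∈ K := (Subgroup.mem_inf.mp hx).1
  have hxu : x * u = u * x :=
    (Subgroup.mem_centralizer_iff.mp (Subgroup.mem_inf.mp hx).2 u rfl).symm
  have hxN : x ∈ Subgroup.normalizer (Subgroup.zpowers u : Set G) :=
    mem_normalizer_zpowers_of_commute huu hxu
  have hQ2 : IsPGroup 2 ((Cfsg.pCore 2 ↥(Subgroup.normalizer (Subgroup.zpowers u : Set G))).map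
      (Subgroup.normalizer (Subgroup.zpowers u : Set G)).subtype) :=
    (Helper49.pCore_isPGroup 2 _).map _
  rw [Subgroup.mem_centralizer_iff]
  intro v hv
  have hvU : v ∈ U := hv
  have hc1 : x * v * x⁻¹ * v⁻¹ ∈ K := by
    have h1 : v * x⁻¹ * v⁻¹ ∈ K :=
      (Subgroup.mem_normalizer_iff.mp (hUK hvU) x⁻¹).mp (K.inv_mem hxK)
    have h2 : x * v * x⁻¹ * v⁻¹ = x * (v * x⁻¹ * v⁻¹) := by group
    rw [h2]; exact K.mul_mem hxK h1
  have hc2 : x * v * x⁻¹ * v⁻¹ ∈
      (Cfsg.pCore 2 ↥(Subgroup.normalizer (Subgroup.zpowers u : Set G))).map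
      (Subgroup.normalizer (Subgroup.zpowers u : Set G)).subtype :=
    Subgroup.mul_mem _ (conj_mem_pCoreOf _ 2 hxN (hle hvU)) (Subgroup.inv_mem _ (hle hvU))
  have hc : x * v * x⁻¹ * v⁻¹ = 1 := by
    apply Helper49.eq_one_of_pelt_coprime (p := 2) _ (Helper49.pow_eq_one_of_mem hQ2 hc2)
    have h1 : orderOf (x * v * x⁻¹ * v⁻¹) ∣ Nat.card K := Subgroup.orderOf_dvd_natCard K hc1
    exact Nat.Coprime.coprime_dvd_left h1 (Nat.coprime_two_right.mpr hK)
  calc v * x = (x * v * x⁻¹ * v⁻¹)⁻¹ * (x * v) := by group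
    _ = x * v := by rw [hc, inv_one, one_mul]

end Cfsg.Agent.Lib.Helper21.NG
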