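import Mathlib
import Cfsg.Prelude.Def_LieRecognition

set_option autoImplicit false

namespace Cfsg.Agent.Lib.Helper21.TypeA

/-- abstract model of the Suzuki 2-group of type A -/
@[ext] structure TA (F : Type*) [Field F] (φ : F →+* F) where
  a : F
  b : F

variable {F : Type*} [Field F] {φ : F →+* F}

instance : Mul (TA F φ) := ⟨fun s t => ⟨s.a + t.a, s.b + t.b + φ s.a * t.a⟩⟩
instance : One (TA F φ) := ⟨⟨0, 0⟩⟩
instance : Inv (TA F φ) := ⟨fun s => ⟨-s.a, -s.b + φ s.a * s.a⟩⟩

theorem mul_a (s t : TA F φ) : (s * t).a = s.a + t.a := rfl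
theorem mul_b (s t : TA F φ) : (s * t).b = s.b + t.b + φ s.a * t.a := rfl
theorem one_a : (1 : TA F φ).a = 0 := rfl
theorem one_b : (1 : TA F φ).b = 0 := rfl
theorem inv_a (s : TA F φ) : (s⁻¹).a = -s.a := rfl
theorem inv_b (s : TA F φ) : (s⁻¹).b = -s.b + φ s.a * s.a := rfl

instance : Group (TA F φ) :=
  Group.ofLeftAxioms
    (by
      intro r s t
      ext
      · simp only [mul_a]; ring
      · simp only [mul_a, mul_b, map_add]; ring)
    (by
      intro s
      ext
      · simp only [mul_a, one_a, zero_add]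
      · simp only [mul_b, one_a, one_b, map_zero]; ring)
    (by
      intro s
      ext
      · simp only [mul_a, inv_a, one_a]; ring
      · simp only [mul_b, inv_a, inv_b, one_b, map_neg]; ring)

theorem gmul_a (s t : TA F φ) : (s * t).a = s.a + t.a := rfl
theorem gmul_b (s t : TA F φ) : (s * t).b = s.b + t.b + φ s.a * t.a := rfl
theorem gone_a : (1 : TA F φ).a = 0 := rfl
theorem gone_b : (1 : TA F φ).b = 0 := rfl

instance [Finite F] : Finite (TA F φ) :=
  Finite.of_injective (fun t : TA F φ => (t.a, t.b)) (by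
    intro s t h
    ext
    · exact congrArg Prod.fst h
    · exact congrArg Prod.snd h)

def mat (φ : F →+* F) (x y : F) : Matrix (Fin 3) (Fin 3) F := !![1, 0, 0; x, 1, 0; y, φ x, 1]

theorem mat_mul (x y x' y' : F) :
    mat φ x y * mat φ x' y' = mat φ (x + x') (y + y' + φ x * x') := by
  unfold mat
  ext i j
  fin_cases i <;> fin_cases j <;> simp [Matrix.mul_apply, Fin.sum_univ_three] <;> ring

def toMat (φ : F →+* F) : TA F φ →* Matrix (Fin 3) (Fin 3) F where
  toFun t := mat φ t.a t.b
  map_one' := by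
    show mat φ 0 0 = 1
    unfold mat
    rw [map_zero]
    exact (Matrix.one_fin_three).symm
  map_mul' s t := (mat_mul (φ := φ) s.a s.b t.a t.b).symm

def toGL (φ : F →+* F) : TA F φ →* GL (Fin 3) F := (toMat φ).toHomUnits

theorem toGL_val (t : TA F φ) :
    ((toGL φ t : GL (Fin 3) F) : Matrix (Fin 3) (Fin 3) F) = mat φ t.a t.b := rfl

theorem toGL_injective : Function.Injective (toGL φ) := by
  intro s t h
  have h' : mat φ s.a s.b = mat φ t.a t.b := by rw [← toGL_val, ← toGL_val, h]
  ext
  · have := congrFun (congrFun h' 1) 0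
    simpa [mat] using this
  · have := congrFun (congrFun h' 2) 0
    simpa [mat] using this

theorem range_toGL : (toGL φ).range = Cfsg.suzukiTypeA F φ := by
  unfold Cfsg.suzukiTypeA
  have hS : {g : GL (Fin 3) F | ∃ x y : F,
      (g : Matrix (Fin 3) (Fin 3) F) = !![1, 0, 0; x, 1, 0; y, φ x, 1]} =
      ((toGL φ).range : Set (GL (Fin 3) F)) := by
    ext g
    constructor
    · rintro ⟨x, y, h⟩
      refine ⟨⟨x, y⟩, ?_⟩
      apply Units.ext
      rw [toGL_val, h]
      rfl
    · rintro ⟨t, rfl⟩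
      exact ⟨t.a, t.b, rfl⟩
  rw [hS, Subgroup.closure_eq]

/-- the abstract model is the matrix group of the statement -/
noncomputable def equivTypeA (φ : F →+* F) : TA F φ ≃* Cfsg.suzukiTypeA F φ :=
  (MonoidHom.ofInjective (toGL_injective (φ := φ))).trans (MulEquiv.subgroupCongr range_toGL)

def proj (φ : F →+* F) : TA F φ →* Multiplicative F where
  toFun t := Multiplicative.ofAdd t.a
  map_one' := rfl
  map_mul' _ _ := rfl

theorem proj_apply (t : TA F φ) : proj φ t = Multiplicative.ofAdd t.a := rfl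

theorem sq_eq [CharP F 2] (t : TA F φ) : t * t = ⟨0, φ t.a * t.a⟩ := by
  ext
  · show t.a + t.a = 0
    exact CharTwo.add_self_eq_zero _
  · show t.b + t.b + φ t.a * t.a = φ t.a * t.a
    rw [CharTwo.add_self_eq_zero, zero_add]

end Cfsg.Agent.Lib.Helper21.TypeA
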