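import Mathlib
import Cfsg.Agent.Lib.Helper21.Suz2
import Cfsg.Agent.Lib.Helper21.RegField
import Cfsg.Agent.Lib.Helper21.QuadForm
import Cfsg.Agent.Lib.Helper21.ExtIso
import Cfsg.Agent.Lib.Helper21.TypeA

set_option autoImplicit false

namespace Cfsg.Agent.Lib.Helper21.Suz3

open Cfsg.Agent.Lib.Helper21.Suz2 Cfsg.Agent.Lib.Helper21.RegField
  Cfsg.Agent.Lib.Helper21.QuadForm Cfsg.Agent.Lib.Helper21.ExtIso Cfsg.Agent.Lib.Helper21.TypeA

universe u v

theorem fields {M N : Type u} [CommGroup M] [CommGroup N] [Finite M] [Finite N]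
    {𝒢 : Type v} [Group 𝒢]
    {actM : 𝒢 → M → M} {actN : 𝒢 → N → N} (hM : RegAct actM) (hN : RegAct actN)
    (Q : M → N) (hQeq : ∀ g v, Q (actM g v) = actN g (Q v)) (hQ1 : Q 1 = 1)
    (hQ0 : ∀ v, Q v = 1 → v = 1) (Bz : M → M → N)
    (hpolar : ∀ v w, Q (v * w) = Q v * Q w * Bz v w)
    (hBl : ∀ v v' w, Bz (v * v') w = Bz v w * Bz v' w)
    (hBr : ∀ v w w', Bz v (w * w') = Bz v w * Bz v w')
    (hB0 : ∃ v w, Bz v w ≠ 1) (n : ℕ) (hn : n ≠ 0)
    (hcardM : Nat.card M = 2 ^ n) (hcardN : Nat.card N = 2 ^ n) :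
    ∃ (μM : M → GaloisField 2 n) (μN : N → GaloisField 2 n)
      (φ : GaloisField 2 n ≃+* GaloisField 2 n),
      Function.Bijective μM ∧ Function.Bijective μN ∧ (∀ v w, μM (v * w) = μM v + μM w) ∧
      (∀ z z', μN (z * z') = μN z + μN z') ∧ φ ≠ RingEquiv.refl _ ∧ Odd (orderOf φ) ∧
      ∀ v, μN (Q v) = μM v * φ (μM v) := by
  classical
  letI : Fintype (GaloisField 2 n) := Fintype.ofFinite _
  obtain ⟨v₁, w₁, hvw⟩ := hB0
  have hB1 : ∀ w, Bz 1 w = 1 := by
    intro w
    have := hBl 1 1 w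
    rw [mul_one] at this
    exact mul_eq_left.mp this.symm
  have hv₁ : v₁ ≠ 1 := by
    rintro rfl; exact hvw (hB1 w₁)
  have he₁ : Q v₁ ≠ 1 := fun h => hv₁ (hQ0 _ h)
  obtain ⟨RM, iFM, iTM, evM, emM, hevMbij, hevMadd, hevM1, hemM0, hevMact, hemMsurj⟩ :=
    regfield hM v₁ hv₁
  obtain ⟨RN, iFN, iTN, evN, emN, hevNbij, hevNadd, hevN1, hemN0, hevNact, hemNsurj⟩ :=
    regfield hN (Q v₁) he₁
  have hcF : Fintype.card (GaloisField 2 n) = 2 ^ n := by
    rw [← Nat.card_eq_fintype_card, GaloisField.card 2 n hn]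
  have hcRM : Fintype.card RM = 2 ^ n := by
    rw [← Nat.card_eq_fintype_card, Nat.card_eq_of_bijective evM hevMbij, hcardM]
  have hcRN : Fintype.card RN = 2 ^ n := by
    rw [← Nat.card_eq_fintype_card, Nat.card_eq_of_bijective evN hevNbij, hcardN]
  let ρM : GaloisField 2 n ≃+* RM := FiniteField.ringEquivOfCardEq (hcF.trans hcRM.symm)
  let ρN : GaloisField 2 n ≃+* RN := FiniteField.ringEquivOfCardEq (hcF.trans hcRN.symm)
  let eM : M ≃ RM := (Equiv.ofBijective evM hevMbij).symm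
  let eN : N ≃ RN := (Equiv.ofBijective evN hevNbij).symm
  have heM1 : ∀ r, eM (evM r) = r := fun r => (Equiv.ofBijective evM hevMbij).symm_apply_apply r
  have heM2 : ∀ v, evM (eM v) = v := fun v => (Equiv.ofBijective evM hevMbij).apply_symm_apply v
  have heN1 : ∀ r, eN (evN r) = r := fun r => (Equiv.ofBijective evN hevNbij).symm_apply_apply r
  have heN2 : ∀ v, evN (eN v) = v := fun v => (Equiv.ofBijective evN hevNbij).apply_symm_apply v
  have hevM0 : evM 0 = 1 := by
    have := hevMadd 0 0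
    rw [add_zero] at this
    exact mul_eq_left.mp this.symm
  have hevN0 : evN 0 = 1 := by
    have := hevNadd 0 0
    rw [add_zero] at this
    exact mul_eq_left.mp this.symm
  have heNmul : ∀ z z', eN (z * z') = eN z + eN z' := by
    intro z z'
    apply hevNbij.1
    rw [heN2, hevNadd, heN2, heN2]
  have heMmul : ∀ z z', eM (z * z') = eM z + eM z' := by
    intro z z'
    apply hevMbij.1
    rw [heM2, hevMadd, heM2, heM2]
  have heN0 : eN 1 = 0 := by rw [← hevN0, heN1]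
  obtain ⟨μM₀, hμM₀⟩ : ∃ μM₀ : M → GaloisField 2 n, ∀ v, μM₀ v = ρM.symm (eM v) :=
    ⟨fun v => ρM.symm (eM v), fun _ => rfl⟩
  obtain ⟨μN, hμN⟩ : ∃ μN : N → GaloisField 2 n, ∀ v, μN v = ρN.symm (eN v) :=
    ⟨fun v => ρN.symm (eN v), fun _ => rfl⟩
  have hμNadd : ∀ z z', μN (z * z') = μN z + μN z' := by
    intro z z'
    rw [hμN, hμN, hμN, heNmul, map_add]
  have hμN1 : μN 1 = 0 := by
    rw [hμN, heN0, map_zero]
  have hμNbij : Function.Bijective μN := by
    have : μN = fun v => ρN.symm (eN v) := funext hμN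
    rw [this]
    exact ρN.symm.bijective.comp eN.bijective
  have hμM₀bij : Function.Bijective μM₀ := by
    have : μM₀ = fun v => ρM.symm (eM v) := funext hμM₀
    rw [this]
    exact ρM.symm.bijective.comp eM.bijective
  have hμM₀add : ∀ v w, μM₀ (v * w) = μM₀ v + μM₀ w := by
    intro v w
    rw [hμM₀, hμM₀, hμM₀, heMmul, map_add]
  obtain ⟨γ, hγ⟩ : ∃ γ : GaloisField 2 n → M, ∀ t, γ t = evM (ρM t) :=
    ⟨fun t => evM (ρM t), fun _ => rfl⟩
  have hγadd : ∀ s t, γ (s + t) = γ s * γ t := by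
    intro s t
    rw [hγ, hγ, hγ, map_add, hevMadd]
  have hγμ : ∀ v, γ (μM₀ v) = v := by
    intro v
    rw [hγ, hμM₀, RingEquiv.apply_symm_apply, heM2]
  have hγinj : Function.Injective γ := by
    have : γ = fun t => evM (ρM t) := funext hγ
    rw [this]
    exact hevMbij.1.comp ρM.injective
  have hγ0 : γ 0 = 1 := by
    rw [hγ, map_zero, hevM0]
  have hQinj : Function.Injective Q := by
    intro v w hvw'
    by_cases hv : v = 1
    · rw [hv, hQ1] at hvw'
      rw [hv, hQ0 w hvw'.symm]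
    · have hw : w ≠ 1 := by
        rintro rfl
        rw [hQ1] at hvw'
        exact hv (hQ0 v hvw')
      obtain ⟨g, hg, _⟩ := hM.reg v w hv hw
      have hQv : Q v ≠ 1 := fun h => hv (hQ0 _ h)
      have h1 : actN g (Q v) = Q v := by rw [← hQeq, hg, hvw']
      have h2 : actN 1 (Q v) = Q v := hN.act_one _
      obtain ⟨g', _, hu⟩ := hN.reg (Q v) (Q v) hQv hQv
      have hg1 : g = 1 := (hu g h1).trans (hu 1 h2).symm
      rw [← hg, hg1, hM.act_one]
  obtain ⟨Q', hQ'def⟩ : ∃ Q' : GaloisField 2 n → GaloisField 2 n, ∀ t, Q' t = μN (Q (γ t)) :=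
    ⟨fun t => μN (Q (γ t)), fun _ => rfl⟩
  have hQ'0 : Q' 0 = 0 := by
    rw [hQ'def, hγ0, hQ1, hμN1]
  have hkey : ∀ g r, eN (Q (evM (emM g * r))) = emN g * eN (Q (evM r)) := by
    intro g r
    rw [hevMact, hQeq]
    apply hevNbij.1
    rw [heN2, hevNact, heN2]
  have hkey1 : ∀ g, eN (Q (evM (emM g))) = emN g := by
    intro g
    have := hkey g 1
    rw [mul_one, hevM1, ← hevN1, heN1, mul_one] at this
    exact this
  have hQ'mul : ∀ s t, Q' (s * t) = Q' s * Q' t := by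
    intro s t
    by_cases hs : s = 0
    · rw [hs, zero_mul, hQ'0, zero_mul]
    · have hρs : ρM s ≠ 0 := by
        intro h
        apply hs
        have h' : ρM s = ρM 0 := by rw [h, map_zero]
        exact ρM.injective h'
      obtain ⟨g, hg⟩ := hemMsurj _ hρs
      rw [hQ'def, hQ'def, hQ'def, hμN, hμN, hμN, hγ, hγ, hγ, map_mul ρM, ← hg, hkey, hkey1,
        map_mul]
  obtain ⟨B', hB'def⟩ : ∃ B' : GaloisField 2 n → GaloisField 2 n → GaloisField 2 n,
      ∀ s t, B' s t = μN (Bz (γ s) (γ t)) :=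
    ⟨fun s t => μN (Bz (γ s) (γ t)), fun _ _ => rfl⟩
  have hB' : ∀ s t, Q' (s + t) = Q' s + Q' t + B' s t := by
    intro s t
    rw [hQ'def, hQ'def, hQ'def, hB'def, hγadd, hpolar, hμNadd, hμNadd]
  have hB'l : ∀ s s' t, B' (s + s') t = B' s t + B' s' t := by
    intro s s' t
    rw [hB'def, hB'def, hB'def, hγadd, hBl, hμNadd]
  have hB'r : ∀ s t t', B' s (t + t') = B' s t + B' s t' := by
    intro s t t'
    rw [hB'def, hB'def, hB'def, hγadd, hBr, hμNadd]
  have hB'0 : ∃ s t, B' s t ≠ 0 := by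
    refine ⟨μM₀ v₁, μM₀ w₁, ?_⟩
    rw [hB'def, hγμ, hγμ, ← hμN1]
    exact fun h => hvw (hμNbij.1 h)
  obtain ⟨σ, τ, hστ, hQ'⟩ := quad_form Q' hQ'mul B' hB' hB'l hB'r hB'0
  have hQ'inj : Function.Injective Q' := by
    intro s t hst
    rw [hQ'def, hQ'def] at hst
    exact hγinj (hQinj (hμNbij.1 hst))
  refine ⟨fun v => σ (μM₀ v), μN, σ.symm.trans τ, σ.bijective.comp hμM₀bij, hμNbij, ?_,
    hμNadd, ?_, ?_, ?_⟩
  · intro v w
    show σ (μM₀ (v * w)) = σ (μM₀ v) + σ (μM₀ w)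
    rw [hμM₀add, map_add]
  · intro h
    apply hστ
    ext x
    have := congrArg (fun ψ : GaloisField 2 n ≃+* GaloisField 2 n => ψ (σ x)) h
    simp only [RingEquiv.trans_apply, RingEquiv.symm_apply_apply, RingEquiv.refl_apply] at this
    exact this.symm
  · apply odd_order
    intro x y hxy
    have hx : ∀ x, x * (σ.symm.trans τ) x = Q' (σ.symm x) := by
      intro x
      rw [hQ', RingEquiv.apply_symm_apply, RingEquiv.trans_apply]
    have hxy' : x * (σ.symm.trans τ) x = y * (σ.symm.trans τ) y := hxy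
    rw [hx, hx] at hxy'
    exact σ.symm.injective (hQ'inj hxy')
  · intro v
    show μN (Q v) = σ (μM₀ v) * (σ.symm.trans τ) (σ (μM₀ v))
    have : μN (Q v) = Q' (μM₀ v) := by
      rw [hQ'def, hγμ]
    rw [this, hQ', RingEquiv.trans_apply, RingEquiv.symm_apply_apply]


variable {P : Type u} [Group P]

theorem sq_mul_central (hce : ∀ z ∈ Subgroup.center P, z * z = 1) (y z : P)
    (hz : z ∈ Subgroup.center P) : (y * z) * (y * z) = y * y := by
  have hzc := Subgroup.mem_center_iff.mp hz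
  calc (y * z) * (y * z) = y * (z * y) * z := by group
    _ = y * (y * z) * z := by rw [← hzc y]
    _ = y * y * (z * z) := by group
    _ = y * y := by rw [hce z hz, mul_one]

theorem comm_of_sq {G : Type*} [Group G] (h : ∀ a : G, a * a = 1) (a b : G) : a * b = b * a := by
  calc a * b = a * ((a * b) * (a * b)) * b := by rw [h (a * b), mul_one]
    _ = (a * a) * (b * a) * (b * b) := by group
    _ = b * a := by rw [h a, h b, one_mul, mul_one]

theorem cover [Finite P] (K : Subgroup (MulAut P))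
    (hK : ∀ x y : P, x ≠ 1 → x * x = 1 → y ≠ 1 → y * y = 1 → ∃! k : K, (k : MulAut P) x = y)
    (hci : ∀ x : P, x * x = 1 → x ∈ Subgroup.center P)
    (hce : ∀ z ∈ Subgroup.center P, z * z = 1)
    (hcard : Nat.card P = Nat.card (Subgroup.center P) ^ 2)
    (w₀ : P) (hw₀ : w₀ ∉ Subgroup.center P) (hw₀2 : w₀ * w₀ ∈ Subgroup.center P) :
    ∀ x : P, x ∈ Subgroup.center P ∨
      ∃ k : K, ∃ z ∈ Subgroup.center P, x = (k : MulAut P) w₀ * z := by
  classical
  have he₀ : w₀ * w₀ ≠ 1 := fun h => hw₀ (hci _ h)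
  have he₀2 : (w₀ * w₀) * (w₀ * w₀) = 1 := hce _ hw₀2
  have hkex : ∀ a : Subgroup.center P, ∃ k : K,
      (a : P) ≠ 1 → (k : MulAut P) (w₀ * w₀) = a := by
    intro a
    by_cases ha : (a : P) = 1
    · exact ⟨1, fun h => absurd ha h⟩
    · obtain ⟨k, hk, _⟩ := hK (w₀ * w₀) a he₀ he₀2 ha (hce _ a.2)
      exact ⟨k, fun _ => hk⟩
  choose κ hκ using hkex
  obtain ⟨Ψ, hΨ1, hΨ2⟩ : ∃ Ψ : Subgroup.center P × Subgroup.center P → P,
      (∀ a z : Subgroup.center P, (a : P) = 1 → Ψ (a, z) = z) ∧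
      (∀ a z : Subgroup.center P, (a : P) ≠ 1 → Ψ (a, z) = (κ a : MulAut P) w₀ * z) :=
    ⟨fun a => if (a.1 : P) = 1 then (a.2 : P) else (κ a.1 : MulAut P) w₀ * a.2,
      fun a z h => if_pos h, fun a z h => if_neg h⟩
  have hnotZ : ∀ (k : K) (z z' : Subgroup.center P), (z : P) ≠ (k : MulAut P) w₀ * z' := by
    intro k z z' h
    apply hw₀
    have h1 : (k : MulAut P) w₀ = z * (z' : P)⁻¹ := by rw [h]; group
    have h2 : (k : MulAut P) w₀ ∈ Subgroup.center P := by
      rw [h1]; exact mul_mem z.2 (inv_mem z'.2)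
    have h3 := aut_center (k : MulAut P)⁻¹ h2
    rw [MulAut.inv_apply_self] at h3
    exact h3
  have hΨinj : Function.Injective Ψ := by
    rintro ⟨a, z⟩ ⟨a', z'⟩ h
    by_cases ha : (a : P) = 1
    · by_cases ha' : (a' : P) = 1
      · rw [hΨ1 a z ha, hΨ1 a' z' ha'] at h
        have e1 : a = a' := Subtype.ext (ha.trans ha'.symm)
        have e2 : z = z' := Subtype.ext h
        rw [e1, e2]
      · rw [hΨ1 a z ha, hΨ2 a' z' ha'] at h
        exact absurd h (hnotZ _ _ _)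
    · by_cases ha' : (a' : P) = 1
      · rw [hΨ2 a z ha, hΨ1 a' z' ha'] at h
        exact absurd h.symm (hnotZ _ _ _)
      · rw [hΨ2 a z ha, hΨ2 a' z' ha'] at h
        have hsq : ((κ a : MulAut P) w₀ * z) * ((κ a : MulAut P) w₀ * z) =
            ((κ a' : MulAut P) w₀ * z') * ((κ a' : MulAut P) w₀ * z') := by rw [h]
        rw [sq_mul_central hce _ _ z.2, sq_mul_central hce _ _ z'.2, ← map_mul, ← map_mul,
          hκ a ha, hκ a' ha'] at hsq
        have e1 : a = a' := Subtype.ext hsq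
        subst e1
        have e2 : z = z' := Subtype.ext (mul_left_cancel h)
        rw [e2]
  have hΨbij : Function.Bijective Ψ := by
    apply hΨinj.bijective_of_nat_card_le
    rw [Nat.card_prod, hcard, pow_two]
  intro x
  obtain ⟨⟨a, z⟩, rfl⟩ := hΨbij.2 x
  by_cases ha : (a : P) = 1
  · left; rw [hΨ1 a z ha]; exact z.2
  · right; exact ⟨κ a, z, z.2, hΨ2 a z ha⟩


open scoped IsMulCommutative in
theorem assemble [Finite P] (K : Subgroup (MulAut P))
    (hKab : ∀ a ∈ K, ∀ b ∈ K, a * b = b * a)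
    (hK : ∀ x y : P, x ≠ 1 → x * x = 1 → y ≠ 1 → y * y = 1 → ∃! k : K, (k : MulAut P) x = y)
    (hci : ∀ x : P, x * x = 1 → x ∈ Subgroup.center P)
    (hce : ∀ z ∈ Subgroup.center P, z * z = 1)
    (hA : ∀ x : P, x * x ∈ Subgroup.center P)
    (w₀ : P)
    (hcov : ∀ x : P, x ∈ Subgroup.center P ∨
      ∃ k : K, ∃ z ∈ Subgroup.center P, x = (k : MulAut P) w₀ * z)
    (hna : ∃ x y : P, x * y ≠ y * x)
    {V : Type u} [CommGroup V] (π : P →* V) (hπs : Function.Surjective π)
    (hπk : ∀ x, π x = 1 ↔ x ∈ Subgroup.center P)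
    (n : ℕ) (hn : n ≠ 0) (hcZ : Nat.card (Subgroup.center P) = 2 ^ n)
    (hcV : Nat.card V = 2 ^ n) :
    ∃ φ : GaloisField 2 n ≃+* GaloisField 2 n, φ ≠ RingEquiv.refl _ ∧ Odd (orderOf φ) ∧
      Nonempty (P ≃* TA (GaloisField 2 n) (φ : GaloisField 2 n →+* GaloisField 2 n)) := by
  classical
  haveI : Finite V := Finite.of_surjective π hπs
  have hB : ∀ x y : P, cm x y ∈ Subgroup.center P := by
    intro x y
    rw [← hπk]
    unfold cm
    rw [map_mul, map_inv, map_mul, map_mul, mul_comm (π y) (π x), inv_mul_cancel]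
  have hπeq : ∀ x y, π x = π y ↔ x⁻¹ * y ∈ Subgroup.center P := by
    intro x y
    rw [← hπk, map_mul, map_inv, inv_mul_eq_one]
  let actZ : K → Subgroup.center P → Subgroup.center P :=
    fun k z => ⟨(k : MulAut P) z, aut_center _ z.2⟩
  obtain ⟨actV, hactV⟩ : ∃ actV : K → V → V,
      ∀ (k : K) (x : P), actV k (π x) = π ((k : MulAut P) x) := by
    refine ⟨fun k v => π ((k : MulAut P) (Function.surjInv hπs v)), ?_⟩
    intro k x
    show π ((k : MulAut P) (Function.surjInv hπs (π x))) = π ((k : MulAut P) x)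
    have h1 : π (Function.surjInv hπs (π x)) = π x := Function.surjInv_eq hπs (π x)
    rw [hπeq] at h1 ⊢
    rw [← map_inv, ← map_mul]
    exact aut_center _ h1
  have hfreeV : ∀ (k k' : K) (x : P), x ∉ Subgroup.center P →
      π ((k : MulAut P) x) = π ((k' : MulAut P) x) → k = k' := by
    intro k k' x hx h
    rw [hπeq] at h
    have h1 : (k' : MulAut P) x =
        (k : MulAut P) x * (((k : MulAut P) x)⁻¹ * (k' : MulAut P) x) := by group
    have h2 : (k' : MulAut P) x * (k' : MulAut P) x =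
        ((k : MulAut P) x * (((k : MulAut P) x)⁻¹ * (k' : MulAut P) x)) *
        ((k : MulAut P) x * (((k : MulAut P) x)⁻¹ * (k' : MulAut P) x)) := by rw [← h1]
    rw [sq_mul_central hce _ _ h, ← map_mul, ← map_mul] at h2
    have hxx1 : x * x ≠ 1 := fun h' => hx (hci _ h')
    have hxx2 : (x * x) * (x * x) = 1 := hce _ (hA x)
    have hkx1 : (k : MulAut P) (x * x) ≠ 1 := by
      intro h'
      exact hxx1 ((k : MulAut P).injective (h'.trans (map_one (k : MulAut P)).symm))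
    have hkx2 : (k : MulAut P) (x * x) * (k : MulAut P) (x * x) = 1 :=
      hce _ (aut_center _ (hA x))
    obtain ⟨l, _, hu⟩ := hK (x * x) ((k : MulAut P) (x * x)) hxx1 hxx2 hkx1 hkx2
    exact (hu k rfl).trans (hu k' h2).symm
  have hRZ : RegAct actZ := by
    refine ⟨?_, ?_, ?_, ?_, ?_, ?_⟩
    · intro g h x; rfl
    · intro x; rfl
    · intro g x y; apply Subtype.ext; exact map_mul (g : MulAut P) _ _
    · intro g h x
      apply Subtype.ext
      show (g : MulAut P) ((h : MulAut P) x) = (h : MulAut P) ((g : MulAut P) x)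
      rw [← MulAut.mul_apply, ← MulAut.mul_apply, hKab g.1 g.2 h.1 h.2]
    · intro x y hx hy
      have hx1 : (x : P) ≠ 1 := fun h => hx (Subtype.ext h)
      have hy1 : (y : P) ≠ 1 := fun h => hy (Subtype.ext h)
      obtain ⟨k, hk, hu⟩ := hK x y hx1 (hce _ x.2) hy1 (hce _ y.2)
      refine ⟨k, Subtype.ext hk, ?_⟩
      intro k' hk'
      exact hu k' (congrArg Subtype.val hk')
    · intro x; apply Subtype.ext; exact hce _ x.2
  have hRV : RegAct actV := by
    refine ⟨?_, ?_, ?_, ?_, ?_, ?_⟩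
    · intro g h v
      obtain ⟨x, rfl⟩ := hπs v
      rw [hactV (g * h) x, hactV h x, hactV g ((h : MulAut P) x)]
      rfl
    · intro v
      obtain ⟨x, rfl⟩ := hπs v
      rw [hactV 1 x]
      rfl
    · intro g v w
      obtain ⟨x, rfl⟩ := hπs v
      obtain ⟨y, rfl⟩ := hπs w
      rw [← map_mul, hactV g (x * y), hactV g x, hactV g y, map_mul, map_mul]
    · intro g h v
      obtain ⟨x, rfl⟩ := hπs v
      rw [hactV h x, hactV g x, hactV g ((h : MulAut P) x), hactV h ((g : MulAut P) x)]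
      congr 1
      rw [← MulAut.mul_apply, ← MulAut.mul_apply, hKab g.1 g.2 h.1 h.2]
    · intro v w hv hw
      obtain ⟨x, rfl⟩ := hπs v
      obtain ⟨y, rfl⟩ := hπs w
      have hx : x ∉ Subgroup.center P := fun h => hv ((hπk x).2 h)
      have hy : y ∉ Subgroup.center P := fun h => hw ((hπk y).2 h)
      obtain ⟨k₁, z₁, hz₁, hx'⟩ := (hcov x).resolve_left hx
      obtain ⟨k₂, z₂, hz₂, hy'⟩ := (hcov y).resolve_left hy
      have hπx : π x = π ((k₁ : MulAut P) w₀) := by
        rw [hx', map_mul, (hπk z₁).2 hz₁, mul_one]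
      have hπy : π y = π ((k₂ : MulAut P) w₀) := by
        rw [hy', map_mul, (hπk z₂).2 hz₂, mul_one]
      have hw₀ : w₀ ∉ Subgroup.center P := by
        intro h
        apply hx
        rw [hx']
        exact mul_mem (aut_center _ h) hz₁
      refine ⟨k₂ * k₁⁻¹, ?_, ?_⟩
      · show actV (k₂ * k₁⁻¹) (π x) = π y
        rw [hπx, hπy, hactV (k₂ * k₁⁻¹) ((k₁ : MulAut P) w₀)]
        congr 1
        show ((k₂ : MulAut P) * (k₁ : MulAut P)⁻¹) ((k₁ : MulAut P) w₀) = (k₂ : MulAut P) w₀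
        rw [MulAut.mul_apply, MulAut.inv_apply_self]
      · intro k' hk'
        have hk'' : actV k' (π x) = π y := hk'
        rw [hπx, hπy, hactV k' ((k₁ : MulAut P) w₀)] at hk''
        have h3 : π (((k' * k₁ : K) : MulAut P) w₀) = π ((k₂ : MulAut P) w₀) := hk''
        have h4 := hfreeV (k' * k₁) k₂ w₀ hw₀ h3
        rw [← h4]; group
    · intro v
      obtain ⟨x, rfl⟩ := hπs v
      rw [← map_mul]
      exact (hπk _).2 (hA x)
  obtain ⟨Q, hQπ⟩ : ∃ Q : V → Subgroup.center P, ∀ x, Q (π x) = ⟨x * x, hA x⟩ := by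
    refine ⟨fun v => ⟨Function.surjInv hπs v * Function.surjInv hπs v, hA _⟩, ?_⟩
    intro x
    apply Subtype.ext
    show Function.surjInv hπs (π x) * Function.surjInv hπs (π x) = x * x
    have h1 : π (Function.surjInv hπs (π x)) = π x := Function.surjInv_eq hπs (π x)
    rw [hπeq] at h1
    have h2 := sq_mul_central hce (Function.surjInv hπs (π x)) _ h1
    rw [mul_inv_cancel_left] at h2
    exact h2.symm
  have hQeq : ∀ g v, Q (actV g v) = actZ g (Q v) := by
    intro g v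
    obtain ⟨x, rfl⟩ := hπs v
    rw [hactV g x, hQπ, hQπ]
    apply Subtype.ext
    show (g : MulAut P) x * (g : MulAut P) x = (g : MulAut P) (x * x)
    rw [map_mul]
  have hQ1 : Q 1 = 1 := by
    have := hQπ 1
    rw [map_one] at this
    rw [this]
    apply Subtype.ext
    exact mul_one 1
  have hQ0 : ∀ v, Q v = 1 → v = 1 := by
    intro v hv
    obtain ⟨x, rfl⟩ := hπs v
    rw [hQπ] at hv
    have hxx : x * x = 1 := congrArg Subtype.val hv
    exact (hπk x).2 (hci x hxx)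
  obtain ⟨Bz, hBzdef⟩ : ∃ Bz : V → V → Subgroup.center P,
      ∀ v w, Bz v w = Q (v * w) * (Q v * Q w)⁻¹ :=
    ⟨fun v w => Q (v * w) * (Q v * Q w)⁻¹, fun _ _ => rfl⟩
  have hpolar : ∀ v w, Q (v * w) = Q v * Q w * Bz v w := by
    intro v w
    rw [hBzdef, mul_comm (Q (v * w)), mul_inv_cancel_left]
  have hBzπ : ∀ x y, Bz (π x) (π y) = ⟨cm y x, hB y x⟩ := by
    intro x y
    rw [hBzdef, ← map_mul, hQπ, hQπ, hQπ]
    have e : (⟨(x * y) * (x * y), hA (x * y)⟩ : Subgroup.center P) =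
        (⟨x * x, hA x⟩ * ⟨y * y, hA y⟩) * ⟨cm y x, hB y x⟩ := by
      apply Subtype.ext
      show (x * y) * (x * y) = (x * x) * (y * y) * cm y x
      have hc := Subgroup.mem_center_iff.mp (hB y x)
      calc (x * y) * (x * y) = x * (y * x) * y := by group
        _ = x * (x * y * cm y x) * y := by rw [← mul_eq_cm y x]
        _ = x * x * y * (cm y x * y) := by group
        _ = x * x * y * (y * cm y x) := by rw [← hc y]
        _ = (x * x) * (y * y) * cm y x := by group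
    rw [e, mul_comm, inv_mul_cancel_left]
  have hBl : ∀ v v' w, Bz (v * v') w = Bz v w * Bz v' w := by
    intro v v' w
    obtain ⟨x, rfl⟩ := hπs v
    obtain ⟨x', rfl⟩ := hπs v'
    obtain ⟨y, rfl⟩ := hπs w
    rw [← map_mul, hBzπ, hBzπ, hBzπ]
    apply Subtype.ext
    exact cm_mul_right y x x' (hB y x)
  have hBr : ∀ v w w', Bz v (w * w') = Bz v w * Bz v w' := by
    intro v w w'
    obtain ⟨x, rfl⟩ := hπs v
    obtain ⟨y, rfl⟩ := hπs w
    obtain ⟨y', rfl⟩ := hπs w'
    rw [← map_mul, hBzπ, hBzπ, hBzπ]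
    apply Subtype.ext
    exact cm_mul_left y y' x (hB y x)
  have hB0 : ∃ v w, Bz v w ≠ 1 := by
    obtain ⟨x, y, hxy⟩ := hna
    refine ⟨π y, π x, ?_⟩
    rw [hBzπ]
    intro h
    have h1 : cm x y = 1 := congrArg Subtype.val h
    exact hxy ((cm_eq_one_iff x y).mp h1)
  obtain ⟨μV, μZ, φ, hμVbij, hμZbij, hμVadd, hμZadd, hφ1, hφodd, hμQ⟩ :=
    fields hRV hRZ Q hQeq hQ1 hQ0 Bz hpolar hBl hBr hB0 n hn hcV hcZ
  refine ⟨φ, hφ1, hφodd, ?_⟩
  have hμV1 : μV 1 = 0 := by
    have := hμVadd 1 1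
    rw [mul_one] at this
    exact add_eq_left.mp this.symm
  have hμZ1 : μZ 1 = 0 := by
    have := hμZadd 1 1
    rw [mul_one] at this
    exact add_eq_left.mp this.symm
  let πP : P →* Multiplicative (GaloisField 2 n) :=
    { toFun := fun p => Multiplicative.ofAdd (μV (π p))
      map_one' := by
        show Multiplicative.ofAdd (μV (π 1)) = 1
        rw [map_one, hμV1, ofAdd_zero]
      map_mul' := by
        intro p q
        show Multiplicative.ofAdd (μV (π (p * q))) =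
          Multiplicative.ofAdd (μV (π p)) * Multiplicative.ofAdd (μV (π q))
        rw [map_mul, hμVadd, ofAdd_add] }
  have hπP : ∀ p, πP p = Multiplicative.ofAdd (μV (π p)) := fun p => rfl
  let ν : Subgroup.center P →* TA (GaloisField 2 n) (φ : GaloisField 2 n →+* GaloisField 2 n) :=
    { toFun := fun z => ⟨0, μZ z⟩
      map_one' := by
        apply TA.ext
        · rfl
        · show μZ 1 = 0
          exact hμZ1
      map_mul' := by
        intro z z'
        apply TA.ext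
        · show (0 : GaloisField 2 n) = 0 + 0
          rw [add_zero]
        · show μZ (z * z') = μZ z + μZ z' + (φ : GaloisField 2 n →+* GaloisField 2 n) 0 * 0
          rw [hμZadd, mul_zero, add_zero] }
  have hν : ∀ z, ν z = ⟨0, μZ z⟩ := fun z => rfl
  apply ext_iso πP (proj _) ?_ ?_ (Subgroup.center P) ?_ ν ?_ ?_ ?_ ?_
  · intro t
    obtain ⟨v, hv⟩ := hμVbij.2 (Multiplicative.toAdd t)
    obtain ⟨p, rfl⟩ := hπs v
    exact ⟨p, by rw [hπP, hv, ofAdd_toAdd]⟩
  · intro t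
    exact ⟨⟨Multiplicative.toAdd t, 0⟩, rfl⟩
  · intro p
    rw [← hπk, hπP]
    constructor
    · intro h
      rw [h, hμV1, ofAdd_zero]
    · intro h
      have h0 : μV (π p) = 0 := ofAdd_eq_one.mp h
      have h1 : μV (π p) = μV 1 := by rw [hμV1]; exact h0
      exact hμVbij.1 h1
  · intro z; rfl
  · intro z z' h
    rw [hν, hν] at h
    have : μZ z = μZ z' := congrArg TA.b h
    exact hμZbij.1 this
  · intro t ht
    have hta : t.a = 0 := ofAdd_eq_one.mp ht
    obtain ⟨z, hz⟩ := hμZbij.2 t.b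
    refine ⟨z, ?_⟩
    rw [hν]
    apply TA.ext
    · exact hta.symm
    · exact hz
  · intro p t h
    refine ⟨hA p, ?_⟩
    have hpa : μV (π p) = t.a := Multiplicative.ofAdd.injective h
    rw [hν, sq_eq]
    apply TA.ext
    · rfl
    · have e1 : μZ ⟨p * p, hA p⟩ = t.a * φ t.a := by
        rw [← hQπ, hμQ, hpa]
      exact e1.trans (mul_comm _ _)

theorem main (hP : Cfsg.IsSuzukiTwoGroup P)
    (hcard : Nat.card P = Nat.card (Subgroup.center P) ^ 2) :
    ∃ (n : ℕ) (φ : GaloisField 2 n ≃+* GaloisField 2 n),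
      Nat.card (GaloisField 2 n) = Nat.card (Subgroup.center P) ∧ φ ≠ RingEquiv.refl _ ∧
      Odd (orderOf φ) ∧
      Nonempty (P ≃* Cfsg.suzukiTypeA (GaloisField 2 n)
        (φ : GaloisField 2 n →+* GaloisField 2 n)) := by
  classical
  obtain ⟨hci, hce⟩ := suzuki_center hP
  obtain ⟨hfin, h2, ⟨xa, ya, hxy⟩, _, K, hKcyc, hK⟩ := hP
  haveI := hfin
  have hKab : ∀ a ∈ K, ∀ b ∈ K, a * b = b * a := by
    intro a ha b hb
    haveI := hKcyc
    obtain ⟨g, hg⟩ := IsCyclic.exists_generator (α := K)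
    obtain ⟨i, hi⟩ := Subgroup.mem_zpowers_iff.mp (hg ⟨a, ha⟩)
    obtain ⟨j, hj⟩ := Subgroup.mem_zpowers_iff.mp (hg ⟨b, hb⟩)
    have h1 : (⟨a, ha⟩ : K) * ⟨b, hb⟩ = ⟨b, hb⟩ * ⟨a, ha⟩ := by
      rw [← hi, ← hj]; exact (Commute.zpow_zpow_self g i j)
    exact congrArg Subtype.val h1
  have hna : ∃ x : P, x ∉ Subgroup.center P := by
    by_contra hcon
    push Not at hcon
    exact hxy ((Subgroup.mem_center_iff.mp (hcon ya)) xa)
  obtain ⟨w₀, hw₀, hw₀2, _⟩ := exists_noncentral h2 hna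
  have hcov := cover K hK hci hce hcard w₀ hw₀ hw₀2
  have hA : ∀ x : P, x * x ∈ Subgroup.center P := by
    intro x
    rcases hcov x with hx | ⟨k, z, hz, rfl⟩
    · rw [hce x hx]; exact one_mem _
    · rw [sq_mul_central hce _ _ hz, ← map_mul]
      exact aut_center _ hw₀2
  obtain ⟨n, hn⟩ := (IsPGroup.iff_card (p := 2) (G := Subgroup.center P)).mp (h2.to_subgroup _)
  have hn0 : n ≠ 0 := by
    rintro rfl
    rw [pow_zero] at hn
    haveI := (Nat.card_eq_one_iff_unique.mp hn).1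
    have : (⟨w₀ * w₀, hw₀2⟩ : Subgroup.center P) = 1 := Subsingleton.elim _ _
    exact hw₀ (hci _ (congrArg Subtype.val this))
  letI instV : CommGroup (P ⧸ Subgroup.center P) :=
    { (inferInstance : Group (P ⧸ Subgroup.center P)) with
      mul_comm := comm_of_sq (fun a => by
        obtain ⟨t, rfl⟩ := QuotientGroup.mk_surjective a
        rw [← QuotientGroup.mk_mul]
        exact (QuotientGroup.eq_one_iff _).mpr (hA t)) }
  have hcV : Nat.card (P ⧸ Subgroup.center P) = 2 ^ n := by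
    have h1 := Subgroup.card_eq_card_quotient_mul_card_subgroup (Subgroup.center P)
    rw [hcard, hn, pow_two] at h1
    exact (Nat.eq_of_mul_eq_mul_right (by positivity) h1).symm
  obtain ⟨φ, hφ1, hφodd, ⟨e⟩⟩ := assemble K hKab hK hci hce hA w₀ hcov ⟨xa, ya, hxy⟩
    (QuotientGroup.mk' (Subgroup.center P)) (QuotientGroup.mk'_surjective _)
    (fun x => QuotientGroup.eq_one_iff x) n hn0 hn hcV
  refine ⟨n, φ, ?_, hφ1, hφodd, ⟨e.trans (equivTypeA _)⟩⟩
  rw [GaloisField.card 2 n hn0, hn]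

end Cfsg.Agent.Lib.Helper21.Suz3
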